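import Cfsg.Agent.OW.PPart

/-!
# Planes of even order, and the existence of a perspectivity in general
-/

set_option autoImplicit false
set_option linter.unusedSectionVars false

namespace Cfsg.Agent.OW

open MulAction Cfsg.Agent.Ito

variable {G P L : Type*} [Group G] [MulAction G P] [MulAction G L] {I : P → L → Prop} {n : ℕ}

namespace PA

variable [Finite P] [Finite L] [Finite G] (H : PA G I n) {v : ℕ} (D : Des G P L I v (n + 1) 1)
include H D

theorem persp_of_even [FaithfulSMul G P] (heven : Even n) :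
    ∃ (g : G) (c : P) (l : L), g ≠ 1 ∧ Per I g c l := by
  classical
  haveI : Fact (Nat.Prime 2) := ⟨Nat.prime_two⟩
  have hn2 := H.n2
  have hvn : 1 ≤ n.factorization 2 :=
    (Nat.prime_two.dvd_iff_one_le_factorization (by omega)).mp heven.two_dvd
  obtain ⟨l⟩ := H.nonempty_L
  set C : Subgroup G := stabilizer G l with hC
  obtain ⟨T, -, hTC, hT, hTc⟩ := sylow_in (p := 2) (bot_le : (⊥ : Subgroup G) ≤ C) IsPGroup.of_bot
  have Tl : ∀ t ∈ T, t • l = l := fun t ht => hTC ht
  -- sizes of orbits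
  have horb : ∀ x, ¬ I x l → ∃ A B : ℕ, Nat.card T = 2 ^ A ∧
      Nat.card (T ⊓ stabilizer G x : Subgroup G) = 2 ^ B ∧ 2 * n.factorization 2 + B ≤ A := by
    intro x hx
    have e2 := H.dual.orb_antiflag D.dual (X := l) (m := x) hx
    rw [← hC] at e2
    obtain ⟨B, hB⟩ := IsPGroup.iff_card.mp (hT.to_inf_left (K := stabilizer G x))
    refine ⟨_, B, hTc, hB, ?_⟩
    have f2 : (Nat.card C).factorization 2
        = 2 * n.factorization 2 + (Nat.card (C ⊓ stabilizer G x : Subgroup G)).factorization 2 := by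
      rw [← e2, Nat.factorization_mul (by positivity) Nat.card_pos.ne', Finsupp.add_apply]
      congr 1
      rw [Nat.factorization_pow]
      rfl
    have h1 := card_le_syl (p := 2) (inf_le_inf_right (stabilizer G x) hTC) hT.to_inf_left
    rw [hB] at h1
    have h2 := (Nat.pow_le_pow_iff_right (by norm_num)).mp h1
    omega
  obtain ⟨x0, hx0, -⟩ := H.off2 l l
  haveI hTnt : Nontrivial T := by
    obtain ⟨A, B, h1, h2, h3⟩ := horb x0 hx0
    rw [← Finite.one_lt_card_iff_nontrivial, h1]
    exact Nat.one_lt_pow (by omega) (by norm_num)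
  obtain ⟨z0, hz0c, hz01⟩ := (Subgroup.nontrivial_iff_exists_ne_one _).mp hT.center_nontrivial
  obtain ⟨a, ha⟩ := hT z0
  have ha' : (z0 : G) ^ (2 ^ a) = 1 := by
    rw [← Subgroup.coe_pow, ha, Subgroup.coe_one]
  obtain ⟨j, hj1, hj2⟩ := exists_inv_pow (X := P) ha'
    (nt_of_ne (fun h => hz01 (Subtype.ext h)))
  set z : G := (z0 : G) ^ (2 ^ j) with hz
  have hzT : z ∈ T := T.pow_mem z0.2 _
  have hcomm : ∀ s ∈ T, s * z = z * s := by
    intro s hs
    have h1 : z0 ^ (2 ^ j) ∈ Subgroup.center T := Subgroup.pow_mem _ hz0c _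
    have := Subgroup.mem_center_iff.mp h1 ⟨s, hs⟩
    exact congrArg Subtype.val this
  have hz1 : z ≠ 1 := by
    rintro h
    obtain ⟨x, hx⟩ := hj1
    exact hx (by rw [h, one_smul])
  by_cases hc : Cfg (FI I z)
  · exfalso
    obtain ⟨m, hm⟩ := H.fi_pl hc
    have hnm := H.inv_baer hj2 hj1 hm
    have zl : z • l = l := Tl z hzT
    let F := {x : P // ¬ I x l ∧ z • x = x}
    haveI := Fintype.ofFinite P
    haveI := Fintype.ofFinite G
    have hF : Fintype.card F = n := by
      have h1 := Set.ncard_add_ncard_compl {x : {x : P // z • x = x} | FI I z x ⟨l, zl⟩}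
      rw [hm.kP, hm.cP] at h1
      have h2 : Fintype.card F = Set.ncard
          ({x : {x : P // z • x = x} | FI I z x ⟨l, zl⟩}ᶜ) := by
        rw [← Nat.card_coe_set_eq, ← Nat.card_eq_fintype_card]
        refine Nat.card_congr ⟨fun x => ⟨⟨x.1, x.2.2⟩, x.2.1⟩, fun x => ⟨x.1.1, x.2, x.1.2⟩,
          ?_, ?_⟩
        · intro x; rfl
        · intro x; rfl
      rw [h2, hnm]
      omega
    letI : MulAction T F :=
      { smul := fun t x => ⟨(t : G) • x.1, fun h => x.2.1 (by
            rw [← H.inv (t : G), Tl t t.2]; exact h), by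
            rw [← mul_smul, ← hcomm t t.2, mul_smul, x.2.2]⟩
        one_smul := fun x => Subtype.ext (one_smul G x.1)
        mul_smul := fun s t x => Subtype.ext (mul_smul (s : G) (t : G) x.1) }
    have smul_val : ∀ (t : T) (x : F), (t • x).1 = (t : G) • x.1 := fun _ _ => rfl
    have hcl := MulAction.card_eq_sum_card_group_div_card_stabilizer T F
    rw [hF] at hcl
    have hdvd : 2 ^ (2 * n.factorization 2) ∣ n := by
      conv_rhs => rw [hcl]
      apply Finset.dvd_sum
      intro ω _
      obtain ⟨A, B, h1, h2, h3⟩ := horb ω.out.1 ω.out.2.1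
      have h4 : Fintype.card (stabilizer T ω.out) = 2 ^ B := by
        rw [← h2, ← Nat.card_eq_fintype_card]
        refine Nat.card_congr ⟨fun t => ⟨t.1.1, t.1.2, congrArg Subtype.val t.2⟩,
          fun t => ⟨⟨t.1, t.2.1⟩, Subtype.ext t.2.2⟩, ?_, ?_⟩
        · intro t; rfl
        · intro t; rfl
      rw [h4, ← Nat.card_eq_fintype_card, h1, Nat.pow_div (by omega) (by norm_num)]
      exact pow_dvd_pow 2 (by omega)
    have h5 := (Nat.prime_two.pow_dvd_iff_le_factorization (by omega)).mp hdvd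
    omega
  · obtain ⟨c, l', hp⟩ := H.inv_per hj2 hj1 hc
    exact ⟨z, c, l', hz1, hp⟩

theorem exists_persp [FaithfulSMul G P] :
    ∃ (g : G) (c : P) (l : L), g ≠ 1 ∧ Per I g c l := by
  rcases Nat.even_or_odd n with h | h
  · exact H.persp_of_even D h
  · exact H.persp_of_primePow D (H.odd_primePow h D.tP D.tQ)

end PA

end Cfsg.Agent.OW
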