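import Cfsg.Agent.OW.Persp

/-!
# Elations: a line all of whose points are centers
-/

set_option autoImplicit false
set_option linter.unusedSectionVars false

namespace Cfsg.Agent.OW

open MulAction

/-- Involutory homology. -/
def Hom2 {G P L : Type*} [Group G] [MulAction G P] [MulAction G L] (I : P → L → Prop) (s : G)
    (c : P) (l : L) : Prop :=
  s * s = 1 ∧ s ≠ 1 ∧ Per I s c l ∧ ¬ I c l

variable {G P L : Type*} [Group G] [MulAction G P] [MulAction G L] {I : P → L → Prop} {n : ℕ}

theorem Hom2.dual {s : G} {c : P} {l : L} (h : Hom2 I s c l) : Hom2 (fun l x => I x l) s l c :=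
  ⟨h.1, h.2.1, h.2.2.1.dual, h.2.2.2⟩

/-- The perspectivities with center `c` and axis `l`. -/
def EE (G : Type*) {P L : Type*} [Group G] [MulAction G P] [MulAction G L] (I : P → L → Prop)
    (c : P) (l : L) : Subgroup G where
  carrier := {g | Per I g c l}
  one_mem' := Per.one
  mul_mem' := fun h h' => h.mul h'
  inv_mem' := fun h => h.inv

theorem mem_EE {g : G} {c : P} {l : L} : g ∈ EE G I c l ↔ Per I g c l := Iff.rfl

theorem nt_of_ne [FaithfulSMul G P] {g : G} (h : g ≠ 1) : ∃ x : P, g • x ≠ x := by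
  by_contra hc
  push Not at hc
  exact h (FaithfulSMul.eq_of_smul_eq_smul (α := P) (fun x => by rw [hc x, one_smul]))

namespace PA

variable [Finite P] [Finite L] (H : PA G I n)
include H

theorem faithful_L [FaithfulSMul G P] : FaithfulSMul G L := by
  constructor
  intro g g' h
  apply FaithfulSMul.eq_of_smul_eq_smul (α := P)
  intro x
  have h1 : ∀ l : L, (g'⁻¹ * g) • l = l := by
    intro l
    rw [mul_smul, h l, inv_smul_smul]
  have h2 := H.triv_P h1 x
  rw [mul_smul, inv_smul_eq_iff] at h2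
  exact h2

theorem hom_conj {s h : G} {c : P} {l : L} (hs : Hom2 I s c l) :
    Hom2 I (h * s * h⁻¹) (h • c) (h • l) := by
  obtain ⟨h1, h2, h3, h4⟩ := hs
  refine ⟨?_, ?_, H.per_conj h3, fun h5 => h4 ((H.inv h c l).mp h5)⟩
  · have : h * s * h⁻¹ * (h * s * h⁻¹) = h * (s * s) * h⁻¹ := by group
    rw [this, h1]
    group
  · intro e
    apply h2
    have : s = h⁻¹ * (h * s * h⁻¹) * h := by group
    rw [this, e]
    group

section faithful

variable [FaithfulSMul G P]

theorem hom_mul {s t : G} {c d : P} {l : L} (hs : Hom2 I s c l) (ht : Hom2 I t d l)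
    (hcd : c ≠ d) :
    s * t ≠ 1 ∧ ∃ z, I z l ∧ (∀ e, I c e → I d e → I z e) ∧ Per I (s * t) z l := by
  obtain ⟨ss, s1, sp, sc⟩ := hs
  obtain ⟨tt, t1, tp, td⟩ := ht
  have s' : s⁻¹ = s := inv_eq_of_mul_eq_one_right ss
  have t' : t⁻¹ = t := inv_eq_of_mul_eq_one_right tt
  have hne : s * t ≠ 1 := by
    intro h
    have : t = s := by
      rw [← s']
      exact (inv_eq_of_mul_eq_one_right h).symm
    subst this
    exact hcd (H.center_unique tp sp (nt_of_ne t1))
  have hax : ∀ x, I x l → (s * t) • x = x := by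
    intro x hx
    rw [mul_smul, tp.1 x hx, sp.1 x hx]
  obtain ⟨z, hz⟩ := H.exists_center hax
  have hn : ∃ x : P, (s * t) • x ≠ x := nt_of_ne hne
  have hn' : ∃ x : P, (s * t)⁻¹ • x ≠ x := nt_of_ne (inv_ne_one.mpr hne)
  have conj1 : s * (s * t) * s⁻¹ = (s * t)⁻¹ := by
    rw [mul_inv_rev, s', t', ← mul_assoc, ss, one_mul]
  have conj2 : t * (s * t) * t⁻¹ = (s * t)⁻¹ := by
    rw [mul_inv_rev, s', t', mul_assoc, mul_assoc, tt, mul_one]
  have hzs : s • z = z := by
    have h1 := H.per_conj (h := s) hz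
    rw [conj1] at h1
    exact H.center_unique hz.inv h1 hn'
  have hzt : t • z = z := by
    have h1 := H.per_conj (h := t) hz
    rw [conj2] at h1
    exact H.center_unique hz.inv h1 hn'
  have hzl : I z l := by
    by_contra hzl
    rcases H.per_fixP sp (nt_of_ne s1) hzs with h | h
    · exact hzl h
    · rcases H.per_fixP tp (nt_of_ne t1) hzt with h' | h'
      · exact hzl h'
      · exact hcd (h ▸ h')
  refine ⟨hne, z, hzl, fun e hce hde => ?_, hz⟩
  have ge : (s * t) • e = e := by
    rw [mul_smul, tp.2 e hde, sp.2 e hce]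
  rcases H.per_fixL hz hn ge with h | h
  · exact h
  · exact absurd (h ▸ hce) sc

theorem new_elation {e s : G} {X D : P} {l d : L} (hX : I X l) (he : Per I e X l) (h1 : e ≠ 1)
    (hs : Hom2 I s D d) (hD : I D l) (hXd : ¬ I X d) : ∃ f : G, f ≠ 1 ∧ Per I f D l := by
  obtain ⟨ss, s1, sp, sc⟩ := hs
  have sl : s • l = l := sp.2 l hD
  have sl' : s⁻¹ • l = l := by rw [inv_smul_eq_iff, sl]
  refine ⟨s * e * s⁻¹ * e⁻¹, ?_, ?_, ?_⟩
  · intro h
    have hcomm : s * e = e * s := by
      have h3 : s * e * s⁻¹ * e⁻¹ = (s * e) * (e * s)⁻¹ := by group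
      rw [h3, mul_inv_eq_one] at h
      exact h
    have key : ∀ x, I x d → I (e • x) d := by
      intro x hx
      have h4 : s • (e • x) = e • x := by
        rw [← mul_smul, hcomm, mul_smul, sp.1 x hx]
      rcases H.per_fixP sp (nt_of_ne s1) h4 with h5 | h5
      · exact h5
      · exfalso
        have h6 : e • D = D := he.1 D hD
        have h7 : x = D := MulAction.injective e (show e • x = e • D by rw [h5, h6])
        exact sc (h7 ▸ hx)
    have hed : e • d = d := by
      obtain ⟨x, hx, -⟩ := H.point3 d X X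
      obtain ⟨y, hy, hyx, -⟩ := H.point3 d x x
      refine H.uniq (H.inc_smul (g := e) hx) (H.inc_smul (g := e) hy) (key x hx) (key y hy) ?_
      intro h5
      exact hyx (MulAction.injective e (show e • y = e • x from h5.symm))
    rcases H.per_fixL he (nt_of_ne h1) hed with h5 | h5
    · exact hXd h5
    · exact sc (h5 ▸ hD)
  · intro x hx
    have h3 : e⁻¹ • x = x := he.inv.1 x hx
    have h4 : I (s⁻¹ • x) l := by
      have := H.inc_smul (g := s⁻¹) hx
      rwa [sl'] at this
    rw [mul_smul, mul_smul, mul_smul, h3, he.1 _ h4, smul_inv_smul]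
  · intro m hm
    have h3 : I D (e⁻¹ • m) := by
      have := H.inc_smul (g := e⁻¹) hm
      rwa [he.inv.1 D hD] at this
    have h4 : s⁻¹ • (e⁻¹ • m) = e⁻¹ • m := sp.inv.2 _ h3
    rw [mul_smul, mul_smul, mul_smul, h4, smul_inv_smul, sp.2 m hm]

theorem full_of_two (hP : ∀ D, ∃ (s : G) (d : L), Hom2 I s D d) {e e' : G} {X X' : P} {l : L}
    (hX : I X l) (he : Per I e X l) (h1 : e ≠ 1) (hX' : I X' l) (he' : Per I e' X' l)
    (h1' : e' ≠ 1) (hXX' : X ≠ X') (D : P) (hD : I D l) : ∃ f : G, f ≠ 1 ∧ Per I f D l := by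
  obtain ⟨s, d, hs⟩ := hP D
  by_cases hXd : I X d
  · refine H.new_elation hX' he' h1' hs hD ?_
    intro hXd'
    have : d = l := H.uniq hXd hXd' hX hX' hXX'
    exact hs.2.2.2 (this ▸ hD)
  · exact H.new_elation hX he h1 hs hD hXd

theorem other_axis (hP : ∀ D, ∃ (s : G) (d : L), Hom2 I s D d)
    (hL : ∀ l, ∃ (s : G) (c : P), Hom2 I s c l) {e : G} {X : P} {l : L}
    (hX : I X l) (he : Per I e X l) (h1 : e ≠ 1)
    (hu : ∀ (f : G) D, f ≠ 1 → I D l → Per I f D l → D = X) :
    ∃ (m : L) (f : G), m ≠ l ∧ f ≠ 1 ∧ I X m ∧ Per I f X m := by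
  obtain ⟨t, C, ht⟩ := hL l
  have hCl := ht.2.2.2
  have hXC : X ≠ C := fun h => hCl (h ▸ hX)
  obtain ⟨m, hXm, hCm⟩ := H.join X C hXC
  have key : ∀ D, I D l → D ≠ X → ∃ s : G, Hom2 I s D m := by
    intro D hD hDX
    obtain ⟨s, d, hs⟩ := hP D
    have hXd : I X d := by
      by_contra hXd
      obtain ⟨f, hf, hf'⟩ := H.new_elation hX he h1 hs hD hXd
      exact hDX (hu f D hf hD hf')
    have sl : s • l = l := hs.2.2.1.2 l hD
    have hsC : s • C = C := by
      by_contra hsC
      have hc := H.hom_conj (h := s) ht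
      rw [sl] at hc
      obtain ⟨hne, z, hzl, hze, hz⟩ := H.hom_mul ht hc (Ne.symm hsC)
      have hDC : D ≠ C := fun h => hCl (h ▸ hD)
      obtain ⟨k, hDk, hCk⟩ := H.join D C hDC
      have hsCk : I (s • C) k := by
        have := H.inc_smul (g := s) hCk
        rwa [hs.2.2.1.2 k hDk] at this
      have hzk := hze k hCk hsCk
      have hkl : k ≠ l := fun h => hCl (h ▸ hCk)
      have hzD : z = D := H.uniq' hzk hzl hDk hD hkl
      exact hDX (hu _ D hne hD (hzD ▸ hz))
    have hCd : I C d := by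
      rcases H.per_fixP hs.2.2.1 (nt_of_ne hs.2.1) hsC with h | h
      · exact h
      · exact absurd hD (h ▸ hCl)
    have : d = m := H.uniq hXd hCd hXm hCm hXC
    exact ⟨s, this ▸ hs⟩
  obtain ⟨D1, hD1, hD1X, -⟩ := H.point3 l X X
  obtain ⟨D2, hD2, hD2X, hD21⟩ := H.point3 l X D1
  obtain ⟨s1, hs1⟩ := key D1 hD1 hD1X
  obtain ⟨s2, hs2⟩ := key D2 hD2 hD2X
  obtain ⟨hne, z, hzm, hze, hz⟩ := H.hom_mul hs1 hs2 hD21.symm
  have hml : m ≠ l := fun h => hCl (h ▸ hCm)
  have hzX : z = X := H.uniq' hzm (hze l hD1 hD2) hXm hX hml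
  exact ⟨m, s1 * s2, hml, hne, hXm, hzX ▸ hz⟩

/-! ### The elations with a given axis -/

/-- The group of elations with axis `l`. -/
def El (l : L) : Subgroup G where
  carrier := {g | ∃ D, I D l ∧ Per I g D l}
  one_mem' := by
    obtain ⟨x, hx, -⟩ := H.point3 l (H.nonempty_P.some) (H.nonempty_P.some)
    exact ⟨x, hx, Per.one⟩
  inv_mem' := by
    rintro g ⟨D, hD, h⟩
    exact ⟨D, hD, h.inv⟩
  mul_mem' := by
    rintro g h ⟨D, hD, pg⟩ ⟨D', hD', ph⟩
    by_cases h1 : h = 1
    · subst h1
      exact ⟨D, hD, by rw [mul_one]; exact pg⟩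
    by_cases hDD : D = D'
    · subst hDD
      exact ⟨D, hD, pg.mul ph⟩
    obtain ⟨z, hz⟩ := H.exists_center (g := g * h) (l := l) (fun x hx => by
      rw [mul_smul, ph.1 x hx, pg.1 x hx])
    refine ⟨z, ?_, hz⟩
    by_contra hzl
    have gz := H.per_smul_c hz
    rw [mul_smul] at gz
    have gz' : h • z = g⁻¹ • z := by rw [eq_inv_smul_iff, gz]
    have hDz : D ≠ z := fun e => hzl (e ▸ hD)
    have hDz' : D' ≠ z := fun e => hzl (e ▸ hD')
    obtain ⟨j, hDj, hzj⟩ := H.join D z hDz
    obtain ⟨j', hDj', hzj'⟩ := H.join D' z hDz'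
    have h3 : I (h • z) j' := by
      have := H.inc_smul (g := h) hzj'
      rwa [ph.2 j' hDj'] at this
    have h4 : I (h • z) j := by
      rw [gz']
      have := H.inc_smul (g := g⁻¹) hzj
      rwa [pg.inv.2 j hDj] at this
    have h5 : h • z ≠ z := by
      intro e
      rcases H.per_fixP ph (nt_of_ne h1) e with h6 | h6
      · exact hzl h6
      · exact hDz' h6.symm
    have h6 : j = j' := H.uniq h4 hzj h3 hzj' h5
    subst h6
    exact hzl (H.uniq hDj hDj' hD hD' hDD ▸ hzj)

theorem mem_El {g : G} {l : L} : g ∈ H.El l ↔ ∃ D, I D l ∧ Per I g D l := Iff.rfl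

theorem el_comm {g h : G} {D D' : P} {l : L} (hD : I D l) (hD' : I D' l) (hDD : D ≠ D')
    (pg : Per I g D l) (ph : Per I h D' l) : g * h = h * g := by
  have hl : h • l = l := ph.2 l hD'
  have gl : g • l = l := pg.2 l hD
  have c1 : Per I (g * h * g⁻¹ * h⁻¹) D l := by
    have h1 := H.per_conj (h := h) pg.inv
    rw [ph.1 D hD, hl] at h1
    have h2 := pg.mul h1
    have e : g * (h * g⁻¹ * h⁻¹) = g * h * g⁻¹ * h⁻¹ := by group
    rwa [e] at h2
  have c2 : Per I (g * h * g⁻¹ * h⁻¹) D' l := by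
    have h1 := H.per_conj (h := g) ph
    rw [pg.1 D' hD', gl] at h1
    exact h1.mul ph.inv
  have c3 : g * h * g⁻¹ * h⁻¹ = 1 := by
    by_contra hne
    exact hDD (H.center_unique c2 c1 (nt_of_ne hne))
  have e : g * h * g⁻¹ * h⁻¹ = (g * h) * (h * g)⁻¹ := by group
  rw [e, mul_inv_eq_one] at c3
  exact c3

theorem el_expo {g h : G} {D D' : P} {l : L} (hD : I D l) (hD' : I D' l) (hDD : D ≠ D')
    (pg : Per I g D l) (ph : Per I h D' l) (h1 : h ≠ 1) {p : ℕ} (hp : h ^ p = 1) :
    g ^ p = 1 := by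
  obtain ⟨D'', hD'', pk⟩ := (H.El l).mul_mem (show g ∈ H.El l from ⟨D, hD, pg⟩)
    (show h ∈ H.El l from ⟨D', hD', ph⟩)
  have hne : D'' ≠ D := by
    rintro rfl
    have h2 := pg.inv.mul pk
    rw [inv_mul_cancel_left] at h2
    exact hDD (H.center_unique ph h2 (nt_of_ne h1))
  have h3 : (g * h) ^ p = g ^ p := by
    rw [(show Commute g h from H.el_comm hD hD' hDD pg ph).mul_pow, hp, mul_one]
  have h4 := pk.pow p
  rw [h3] at h4
  by_contra hne'
  exact hne (H.center_unique (pg.pow p) h4 (nt_of_ne hne'))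

theorem full_isPGroup [Finite G] {l : L} (hf : ∀ D, I D l → ∃ f : G, f ≠ 1 ∧ Per I f D l) :
    ∃ p : ℕ, p.Prime ∧ IsPGroup p (H.El l) := by
  obtain ⟨D0, hD0, -⟩ := H.point3 l (H.nonempty_P.some) (H.nonempty_P.some)
  obtain ⟨D1, hD1, hD10, -⟩ := H.point3 l D0 D0
  obtain ⟨f0, hf0, pf0⟩ := hf D0 hD0
  obtain ⟨f1, hf1, pf1⟩ := hf D1 hD1
  have hc : Nat.card (EE G I D0 l) ≠ 1 := by
    intro h
    rw [Subgroup.card_eq_one] at h
    have : f0 ∈ EE G I D0 l := pf0
    rw [h, Subgroup.mem_bot] at this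
    exact hf0 this
  obtain ⟨p, hp, hpd⟩ := Nat.exists_prime_and_dvd hc
  haveI := Fact.mk hp
  obtain ⟨h, hh⟩ := exists_prime_orderOf_dvd_card' p hpd
  have hhp : (h : G) ^ p = 1 := by
    rw [← hh, ← Subgroup.coe_pow, pow_orderOf_eq_one, Subgroup.coe_one]
  have hh1 : (h : G) ≠ 1 := by
    intro e
    have e' : h = 1 := Subtype.ext e
    rw [e', orderOf_one] at hh
    exact hp.one_lt.ne hh
  refine ⟨p, hp, ?_⟩
  rintro ⟨g, D, hD, pg⟩
  refine ⟨1, ?_⟩
  rw [pow_one]
  apply Subtype.ext
  change g ^ p = 1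
  by_cases hDD : D = D0
  · subst hDD
    exact H.el_expo hD hD1 hD10.symm pg pf1 hf1 (H.el_expo hD1 hD hD10 pf1 h.2 hh1 hhp)
  · exact H.el_expo hD hD0 hDD pg h.2 hh1 hhp

theorem full_primePow [Finite G] {l : L} (hf : ∀ D, I D l → ∃ f : G, f ≠ 1 ∧ Per I f D l) :
    IsPrimePow n := by
  classical
  haveI := Fintype.ofFinite P
  haveI := Fintype.ofFinite L
  haveI := Fintype.ofFinite G
  obtain ⟨p, hp, hpg⟩ := H.full_isPGroup hf
  haveI := Fact.mk hp
  have hn2 := H.n2
  -- the point with the smallest group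
  obtain ⟨D0, hD0, hmin⟩ : ∃ D0, I D0 l ∧ ∀ D, I D l →
      Nat.card (EE G I D0 l) ≤ Nat.card (EE G I D l) := by
    obtain ⟨x, hx, -⟩ := H.point3 l (H.nonempty_P.some) (H.nonempty_P.some)
    obtain ⟨D0, hD0, h⟩ := Set.exists_min_image {x | I x l} (fun D => Nat.card (EE G I D l))
      (Set.toFinite _) ⟨x, hx⟩
    exact ⟨D0, hD0, h⟩
  set e0 := Nat.card (EE G I D0 l) with he0
  have he2 : 2 ≤ e0 := by
    obtain ⟨f0, hf0, pf0⟩ := hf D0 hD0
    have h1 : 0 < e0 := Nat.card_pos
    have h2 : e0 ≠ 1 := by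
      intro h
      rw [he0, Subgroup.card_eq_one] at h
      have : f0 ∈ EE G I D0 l := pf0
      rw [h, Subgroup.mem_bot] at this
      exact hf0 this
    omega
  set N := Nat.card (H.El l) with hN
  -- the count
  have hcount : (n + 1) * (e0 - 1) + 1 ≤ N := by
    have h1 : ((Finset.univ.filter (fun D : P => I D l)).biUnion
        (fun D => Finset.univ.filter (fun g : G => Per I g D l ∧ g ≠ 1))).card
        ≤ (Finset.univ.filter (fun g : G => g ∈ H.El l ∧ g ≠ 1)).card := by
      apply Finset.card_le_card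
      intro g
      simp only [Finset.mem_biUnion, Finset.mem_filter, Finset.mem_univ, true_and]
      rintro ⟨D, hD, pg, h1⟩
      exact ⟨⟨D, hD, pg⟩, h1⟩
    rw [Finset.card_biUnion] at h1
    · have h2 : ∀ D, I D l → (Finset.univ.filter (fun g : G => Per I g D l ∧ g ≠ 1)).card
          = Nat.card (EE G I D l) - 1 := by
        intro D _
        have e1 : (Finset.univ.filter (fun g : G => Per I g D l ∧ g ≠ 1))
            = (Finset.univ.filter (fun g : G => Per I g D l)).erase 1 := by
          ext g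
          simp only [Finset.mem_filter, Finset.mem_univ, true_and, Finset.mem_erase]
          exact and_comm
        rw [e1, Finset.card_erase_of_mem (by simpa using (Per.one : Per I (1 : G) D l)),
          Nat.card_eq_fintype_card, Fintype.card_of_subtype]
        intro g
        simp only [Finset.mem_filter, Finset.mem_univ, true_and]
        exact Iff.rfl
      have h3 : (Finset.univ.filter (fun g : G => g ∈ H.El l ∧ g ≠ 1)).card = N - 1 := by
        have e1 : (Finset.univ.filter (fun g : G => g ∈ H.El l ∧ g ≠ 1))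
            = (Finset.univ.filter (fun g : G => g ∈ H.El l)).erase 1 := by
          ext g
          simp only [Finset.mem_filter, Finset.mem_univ, true_and, Finset.mem_erase]
          exact and_comm
        rw [e1, Finset.card_erase_of_mem (by simpa using (H.El l).one_mem), hN,
          Nat.card_eq_fintype_card, Fintype.card_of_subtype]
        intro g
        simp
      have h4 : (Finset.univ.filter (fun D : P => I D l)).card • (e0 - 1) ≤
          ∑ D ∈ Finset.univ.filter (fun D : P => I D l),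
            (Finset.univ.filter (fun g : G => Per I g D l ∧ g ≠ 1)).card := by
        apply Finset.card_nsmul_le_sum
        intro D hD
        simp only [Finset.mem_filter, Finset.mem_univ, true_and] at hD
        rw [h2 D hD]
        exact Nat.sub_le_sub_right (hmin D hD) 1
      have h5 : (Finset.univ.filter (fun D : P => I D l)).card = n + 1 := by
        rw [← H.kP l, Set.ncard_eq_toFinset_card']
        congr 1
        ext x
        simp
      rw [h5, smul_eq_mul] at h4
      rw [h3] at h1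
      have h6 : 0 < N := Nat.card_pos
      omega
    · intro D hD D' hD' hDD
      rw [Function.onFun, Finset.disjoint_left]
      intro g
      simp only [Finset.mem_filter, Finset.mem_univ, true_and, not_and, not_not]
      rintro ⟨pg, h1⟩ pg'
      exact absurd (H.center_unique pg' pg (nt_of_ne h1)) hDD
  -- Burnside
  let X := {m : L // I D0 m ∧ m ≠ l}
  have gl : ∀ g : H.El l, (g : G) • l = l := by
    rintro ⟨g, D, hD, pg⟩
    exact pg.2 l hD
  have gD : ∀ g : H.El l, (g : G) • D0 = D0 := by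
    rintro ⟨g, D, hD, pg⟩
    exact pg.1 D0 hD0
  letI : MulAction (H.El l) X :=
    { smul := fun g m => ⟨(g : G) • m.1, by
        have := H.inc_smul (g := (g : G)) m.2.1
        rwa [gD] at this, fun h => m.2.2 (by
          have h1 : (g : G) • m.1 = (g : G) • l := by rw [gl]; exact h
          exact MulAction.injective (g : G) h1)⟩
      one_smul := fun m => Subtype.ext (one_smul G m.1)
      mul_smul := fun g h m => Subtype.ext (mul_smul (g : G) (h : G) m.1) }
  have smul_val : ∀ (g : H.El l) (m : X), (g • m).1 = (g : G) • m.1 := fun _ _ => rfl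
  have hX : Fintype.card X = n := by
    rw [Fintype.card_subtype]
    have e1 : (Finset.univ.filter (fun m : L => I D0 m ∧ m ≠ l))
        = (Finset.univ.filter (fun m : L => I D0 m)).erase l := by
      ext g
      simp only [Finset.mem_filter, Finset.mem_univ, true_and, Finset.mem_erase]
      exact and_comm
    rw [e1, Finset.card_erase_of_mem (by simpa using hD0)]
    have e2 : (Finset.univ.filter (fun m : L => I D0 m)).card = n + 1 := by
      rw [← H.kL D0, Set.ncard_eq_toFinset_card']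
      congr 1
      ext x
      simp
    rw [e2]
    rfl
  have hfix : ∀ g : H.El l, Fintype.card (fixedBy X g)
      = if Per I (g : G) D0 l then n else 0 := by
    intro g
    split_ifs with hg
    · have : fixedBy X g = Set.univ := by
        ext m
        simp only [mem_fixedBy, Set.mem_univ, iff_true]
        exact Subtype.ext (hg.2 m.1 m.2.1)
      exact (Fintype.card_congr ((Equiv.setCongr this).trans (Equiv.Set.univ X))).trans hX
    · rw [Fintype.card_eq_zero_iff]
      constructor
      rintro ⟨m, hm⟩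
      have hm' : (g : G) • m.1 = m.1 := congrArg Subtype.val hm
      obtain ⟨g, D, hD, pg⟩ := g
      have h1 : g ≠ 1 := by
        rintro rfl
        exact hg Per.one
      rcases H.per_fixL pg (nt_of_ne h1) hm' with h2 | h2
      · have hDD : D ≠ D0 := by
          rintro rfl
          exact hg pg
        exact m.2.2 (H.uniq h2 m.2.1 hD hD0 hDD)
      · exact m.2.2 h2
  have hB := sum_card_fixedBy_eq_card_orbits_mul_card_group (G := H.El l) (X := X)
  rw [Finset.sum_congr rfl (fun g _ => hfix g), ← Finset.sum_filter, Finset.sum_const,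
    smul_eq_mul] at hB
  have hEcard : (Finset.univ.filter (fun g : H.El l => Per I (g : G) D0 l)).card = e0 := by
    rw [he0, Nat.card_eq_fintype_card, ← Fintype.card_subtype]
    refine Fintype.card_congr ⟨fun g => ⟨g.1.1, g.2⟩, fun g => ⟨⟨g.1, D0, hD0, g.2⟩, g.2⟩, ?_, ?_⟩
    · intro g; rfl
    · intro g; rfl
  rw [hEcard, ← Nat.card_eq_fintype_card (α := H.El l), ← hN] at hB
  set r := Fintype.card (Quotient (orbitRel (H.El l) X)) with hr
  have hr1 : r = 1 := by
    have hr0 : r ≠ 0 := by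
      intro h
      rw [h, zero_mul] at hB
      have : 0 < e0 * n := by positivity
      omega
    by_contra hne
    have hr2 : 2 ≤ r := by omega
    have h1 : 2 * N ≤ r * N := Nat.mul_le_mul_right _ hr2
    rw [← hB] at h1
    obtain ⟨e, he⟩ : ∃ e, e0 = e + 1 := ⟨e0 - 1, by omega⟩
    rw [he, Nat.add_sub_cancel] at hcount
    rw [he] at h1 he2
    have h2 : 1 ≤ e := by omega
    have h3 : 2 * ((n + 1) * e + 1) ≤ (e + 1) * n := by omega
    have h4 : n ≤ e * n := Nat.le_mul_of_pos_left n h2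
    nlinarith
  rw [hr1, one_mul] at hB
  obtain ⟨a, ha⟩ := (IsPGroup.iff_card.mp hpg)
  have hdvd : n ∣ p ^ a := by
    rw [← ha, ← hN, ← hB]
    exact Dvd.intro_left _ rfl
  obtain ⟨j, -, hj⟩ := (Nat.dvd_prime_pow hp).mp hdvd
  rw [isPrimePow_nat_iff]
  refine ⟨p, j, hp, ?_, hj.symm⟩
  rcases Nat.eq_zero_or_pos j with h | h
  · rw [h, pow_zero] at hj
    omega
  · exact h

end faithful

end PA

end Cfsg.Agent.OW
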