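import Cfsg.Agent.OW.Full

/-!
# Planes all of whose lines are axes and all of whose points are centers
-/

set_option autoImplicit false
set_option linter.unusedSectionVars false

namespace Cfsg.Agent.OW

open MulAction Matrix

variable {G P L : Type*} [Group G] [MulAction G P] [MulAction G L] {I : P → L → Prop} {n : ℕ}

namespace PA

variable [Finite P] [Finite L] (H : PA G I n) [FaithfulSMul G P]
include H

/-- If every line is the axis and every point the center of an involutory homology then there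
is an elation. -/
theorem exists_elation (hP : ∀ D, ∃ (s : G) (d : L), Hom2 I s D d)
    (hL : ∀ l, ∃ (s : G) (c : P), Hom2 I s c l) :
    ∃ (g : G) (c : P) (l : L), g ≠ 1 ∧ I c l ∧ Per I g c l := by
  classical
  haveI := Fintype.ofFinite P
  haveI := Fintype.ofFinite L
  haveI := H.faithful_L
  by_contra hno
  push Not at hno
  choose s c hs using hL
  have huniq : ∀ (l : L) (t : G) (d : P), Hom2 I t d l → d = c l := by
    intro l t d ht
    by_contra hne
    obtain ⟨h1, z, hz, -, pz⟩ := H.hom_mul ht (hs l) hne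
    exact hno _ z l h1 hz pz
  have hsym : ∀ l m : L, I (c l) m → I (c m) l := by
    intro l m h
    have sm : s l • m = m := (hs l).2.2.1.2 m h
    have h1 := H.hom_conj (h := s l) (hs m)
    rw [sm] at h1
    have h2 := huniq m _ _ h1
    rcases H.per_fixP (hs l).2.2.1 (nt_of_ne (hs l).2.1) h2 with h3 | h3
    · exact h3
    · exact absurd (h3 ▸ h) (hs m).2.2.2
  have hinj : ∀ l m : L, c l = c m → l = m := by
    intro l m h
    by_contra hne
    have h1 := (hs l).dual
    have h2 := (hs m).dual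
    rw [← h] at h2
    obtain ⟨h3, z, hz, -, pz⟩ := H.dual.hom_mul h1 h2 hne
    exact hno _ (c l) z h3 hz pz.dual
  obtain ⟨p, hp, hpn⟩ := Nat.exists_prime_and_dvd (show n ≠ 1 by have := H.n2; omega)
  haveI := Fact.mk hp
  have hn0 : (n : ZMod p) = 0 := (ZMod.natCast_eq_zero_iff n p).mpr hpn
  let A : Matrix L L (ZMod p) := fun l m => if I (c l) m then 1 else 0
  let J : Matrix L L (ZMod p) := fun _ _ => 1
  have cardL : ∀ x : P, (Finset.univ.filter (fun m : L => I x m)).card = n + 1 := by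
    intro x
    rw [← H.kL x, Set.ncard_eq_toFinset_card']
    congr 1
    ext x
    simp
  have hAA : A * A = J := by
    ext l l'
    rw [Matrix.mul_apply]
    change ∑ m, (if I (c l) m then (1 : ZMod p) else 0) * (if I (c m) l' then 1 else 0) = 1
    have e1 : ∀ m, (if I (c l) m then (1 : ZMod p) else 0) * (if I (c m) l' then 1 else 0)
        = if (I (c l) m ∧ I (c l') m) then 1 else 0 := by
      intro m
      have : I (c m) l' ↔ I (c l') m := ⟨hsym m l', hsym l' m⟩
      by_cases h1 : I (c l) m <;> by_cases h2 : I (c l') m <;> simp [h1, h2, this]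
    rw [Finset.sum_congr rfl (fun m _ => e1 m), Finset.sum_boole]
    by_cases hll : l = l'
    · subst hll
      simp only [and_self]
      rw [cardL]
      push_cast
      rw [hn0, zero_add]
    · have : (Finset.univ.filter (fun m : L => I (c l) m ∧ I (c l') m)).card = 1 := by
        rw [Finset.card_eq_one]
        have hcc : c l ≠ c l' := fun h => hll (hinj l l' h)
        obtain ⟨e, h1, h2⟩ := H.join (c l) (c l') hcc
        refine ⟨e, ?_⟩
        ext m
        simp only [Finset.mem_filter, Finset.mem_univ, true_and, Finset.mem_singleton]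
        constructor
        · rintro ⟨h3, h4⟩
          exact H.uniq h3 h4 h1 h2 hcc
        · rintro rfl
          exact ⟨h1, h2⟩
      rw [this, Nat.cast_one]
  have hJA : J * A = J := by
    ext l l'
    rw [Matrix.mul_apply]
    change ∑ m, (1 : ZMod p) * (if I (c m) l' then 1 else 0) = 1
    have e1 : ∀ m, (1 : ZMod p) * (if I (c m) l' then 1 else 0)
        = if I (c l') m then 1 else 0 := by
      intro m
      have : I (c m) l' ↔ I (c l') m := ⟨hsym m l', hsym l' m⟩
      simp [this]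
    rw [Finset.sum_congr rfl (fun m _ => e1 m), Finset.sum_boole, cardL]
    push_cast
    rw [hn0, zero_add]
  have hpow : ∀ j : ℕ, A ^ (j + 2) = J := by
    intro j
    induction j with
    | zero => rw [zero_add, pow_two, hAA]
    | succ j ih => rw [show j + 1 + 2 = (j + 2) + 1 by ring, pow_succ, ih, hJA]
  have htr := ZMod.trace_pow_card A
  have htrA : A.trace = 0 := by
    rw [Matrix.trace]
    apply Finset.sum_eq_zero
    intro l _
    change (if I (c l) l then (1 : ZMod p) else 0) = 0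
    rw [if_neg (hs l).2.2.2]
  have htrJ : J.trace = 1 := by
    rw [Matrix.trace]
    change ∑ _l : L, (1 : ZMod p) = 1
    rw [Finset.sum_const, Finset.card_univ, ← Nat.card_eq_fintype_card, H.cL, nsmul_eq_mul]
    push_cast
    rw [hn0]
    ring
  have hAp : A ^ p = J := by
    have := hpow (p - 2)
    rwa [Nat.sub_add_cancel hp.two_le] at this
  rw [hAp, htrA, htrJ, zero_pow hp.ne_zero] at htr
  exact one_ne_zero htr

theorem hom_comm {s t : G} {x y : P} {d e : L} (hxy : x ≠ y) (hs : Hom2 I s x d) (hyd : I y d)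
    (ht : Hom2 I t y e) (hxe : I x e) : s * t = t * s := by
  have sy : s • y = y := hs.2.2.1.1 y hyd
  have se : s • e = e := hs.2.2.1.2 e hxe
  have tx : t • x = x := ht.2.2.1.1 x hxe
  have td : t • d = d := ht.2.2.1.2 d hyd
  have c1 : Per I (s * t * s⁻¹ * t⁻¹) y e := by
    have h1 := H.per_conj (h := s) ht.2.2.1
    rw [sy, se] at h1
    exact h1.mul ht.2.2.1.inv
  have c2 : Per I (s * t * s⁻¹ * t⁻¹) x d := by
    have h1 := H.per_conj (h := t) hs.2.2.1.inv
    rw [tx, td] at h1
    have h2 := hs.2.2.1.mul h1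
    have e : s * (t * s⁻¹ * t⁻¹) = s * t * s⁻¹ * t⁻¹ := by group
    rwa [e] at h2
  have c3 : s * t * s⁻¹ * t⁻¹ = 1 := by
    by_contra hne
    exact hxy (H.center_unique c1 c2 (nt_of_ne hne))
  have e : s * t * s⁻¹ * t⁻¹ = (s * t) * (t * s)⁻¹ := by group
  rw [e, mul_inv_eq_one] at c3
  exact c3

/-- Two involutory homologies with opposite types on `l` give one with axis `l`. -/
theorem hom_axis (hi : ∀ s : G, s * s = 1 → s ≠ 1 → ∃ c l, Hom2 I s c l) {s t : G} {x y : P}
    {d e l : L} (hxl : I x l) (hyl : I y l) (hxy : x ≠ y) (hs : Hom2 I s x d) (hyd : I y d)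
    (ht : Hom2 I t y e) (hxe : I x e) : ∃ (r : G) (c : P), Hom2 I r c l := by
  have hcomm := H.hom_comm hxy hs hyd ht hxe
  have hst : s * t * (s * t) = 1 := by
    calc s * t * (s * t) = s * (t * s) * t := by group
      _ = s * (s * t) * t := by rw [hcomm]
      _ = (s * s) * (t * t) := by group
      _ = 1 := by rw [hs.1, ht.1, one_mul]
  have hxd : ¬ I x d := hs.2.2.2
  have hye : ¬ I y e := ht.2.2.2
  have hne : s * t ≠ 1 := by
    intro h
    have h1 : t = s := by
      rw [← inv_eq_of_mul_eq_one_right hs.1]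
      exact (inv_eq_of_mul_eq_one_right h).symm
    subst h1
    exact hxy (H.center_unique ht.2.2.1 hs.2.2.1 (nt_of_ne ht.2.1))
  obtain ⟨c, f, hcf⟩ := hi _ hst hne
  have sx : s • x = x := H.per_smul_c hs.2.2.1
  have ty : t • y = y := H.per_smul_c ht.2.2.1
  have sy : s • y = y := hs.2.2.1.1 y hyd
  have tx : t • x = x := ht.2.2.1.1 x hxe
  have rx : (s * t) • x = x := by rw [mul_smul, tx, sx]
  have ry : (s * t) • y = y := by rw [mul_smul, ty, sy]
  have hde : d ≠ e := fun h => hxd (h ▸ hxe)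
  obtain ⟨R, hRd, hRe⟩ := H.meet d e hde
  have rR : (s * t) • R = R := by
    rw [mul_smul, ht.2.2.1.1 R hRe, hs.2.2.1.1 R hRd]
  have hnr := nt_of_ne (P := P) hcf.2.1
  have hRx : R ≠ x := fun h => hxd (h ▸ hRd)
  have hRy : R ≠ y := fun h => hye (h ▸ hRe)
  rcases H.per_fixP hcf.2.2.1 hnr rx with hx | hx
  · rcases H.per_fixP hcf.2.2.1 hnr ry with hy | hy
    · have : f = l := H.uniq hx hy hxl hyl hxy
      exact ⟨s * t, c, this ▸ hcf⟩
    · -- center y, axis e
      exfalso
      have hRf : I R f := by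
        rcases H.per_fixP hcf.2.2.1 hnr rR with h | h
        · exact h
        · exact absurd (h.trans hy.symm) hRy
      have hfe : f = e := H.uniq hx hRf hxe hRe hRx.symm
      obtain ⟨w, hwe, hwx, hwR⟩ := H.point3 e x R
      have h1 : (s * t) • w = w := hcf.2.2.1.1 w (hfe ▸ hwe)
      rw [mul_smul, ht.2.2.1.1 w hwe] at h1
      rcases H.per_fixP hs.2.2.1 (nt_of_ne hs.2.1) h1 with h2 | h2
      · exact hwR (H.uniq' h2 hwe hRd hRe hde)
      · exact hwx h2
  · exfalso
    have hyf : I y f := by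
      rcases H.per_fixP hcf.2.2.1 hnr ry with h | h
      · exact h
      · exact absurd (hx.trans h.symm) hxy
    have hRf : I R f := by
      rcases H.per_fixP hcf.2.2.1 hnr rR with h | h
      · exact h
      · exact absurd (h.trans hx.symm) hRx
    have hfd : f = d := H.uniq hyf hRf hyd hRd hRy.symm
    obtain ⟨w, hwd, hwy, hwR⟩ := H.point3 d y R
    have h1 : (s * t) • w = w := hcf.2.2.1.1 w (hfd ▸ hwd)
    rw [hcomm, mul_smul, hs.2.2.1.1 w hwd] at h1
    rcases H.per_fixP ht.2.2.1 (nt_of_ne ht.2.1) h1 with h2 | h2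
    · exact hwR (H.uniq' hwd h2 hRd hRe hde)
    · exact hwy h2

theorem axis_of_two (hi : ∀ s : G, s * s = 1 → s ≠ 1 → ∃ c l, Hom2 I s c l)
    (h2 : ∀ x y : P, x ≠ y → ∃ s : G, s ≠ 1 ∧ s * s = 1 ∧ s • x = x ∧ s • y = y) (l : L) :
    ∃ (s : G) (c : P), Hom2 I s c l := by
  by_contra hcon
  push Not at hcon
  have T : ∀ x y, x ≠ y → I x l → I y l → ∃ (s : G) (d : L),
      (Hom2 I s x d ∧ I y d) ∨ (Hom2 I s y d ∧ I x d) := by
    intro x y hxy hx hy
    obtain ⟨s, s1, ss, sx, sy⟩ := h2 x y hxy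
    obtain ⟨c, d, hs⟩ := hi s ss s1
    have hn := nt_of_ne (P := P) s1
    rcases H.per_fixP hs.2.2.1 hn sx with h | h
    · rcases H.per_fixP hs.2.2.1 hn sy with h' | h'
      · have : d = l := H.uniq h h' hx hy hxy
        exact absurd (this ▸ hs) (hcon s c)
      · exact ⟨s, d, Or.inr ⟨h' ▸ hs, h⟩⟩
    · rcases H.per_fixP hs.2.2.1 hn sy with h' | h'
      · exact ⟨s, d, Or.inl ⟨h ▸ hs, h'⟩⟩
      · exact absurd (h.trans h'.symm) hxy
  have T2 : ∀ x y, x ≠ y → I x l → I y l → ∀ (s t : G) (d e : L), Hom2 I s x d → I y d →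
      Hom2 I t y e → I x e → False := by
    intro x y hxy hx hy s t d e hs hyd ht hxe
    obtain ⟨r, c, hr⟩ := H.hom_axis hi hx hy hxy hs hyd ht hxe
    exact hcon r c hr
  obtain ⟨s, u, v, d, huv, hu, hv, hs, hvd⟩ : ∃ (s : G) (u v : P) (d : L), u ≠ v ∧ I u l ∧
      I v l ∧ Hom2 I s u d ∧ I v d := by
    obtain ⟨x, hx, -⟩ := H.point3 l (H.nonempty_P.some) (H.nonempty_P.some)
    obtain ⟨y, hy, hyx, -⟩ := H.point3 l x x
    obtain ⟨s, d, ⟨h, h'⟩ | ⟨h, h'⟩⟩ := T x y hyx.symm hx hy
    · exact ⟨s, x, y, d, hyx.symm, hx, hy, h, h'⟩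
    · exact ⟨s, y, x, d, hyx, hy, hx, h, h'⟩
  obtain ⟨w, hw, hwu, hwv⟩ := H.point3 l u v
  have sl : s • l = l := hs.2.2.1.2 l hu
  have hw' : I (s • w) l := by
    have := H.inc_smul (g := s) hw
    rwa [sl] at this
  have hdl : d ≠ l := fun h => hs.2.2.2 (h ▸ hu)
  have hww : w ≠ s • w := by
    intro e
    rcases H.per_fixP hs.2.2.1 (nt_of_ne hs.2.1) e.symm with h | h
    · exact hwv (H.uniq' h hw hvd hv hdl)
    · exact hwu h
  have ssw : s • s • w = w := by rw [← mul_smul, hs.1, one_smul]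
  obtain ⟨t, e, ⟨h, h'⟩ | ⟨h, h'⟩⟩ := T w (s • w) hww hw hw'
  · have h1 := H.hom_conj (h := s) h
    have h3 := H.inc_smul (g := s) h'
    rw [ssw] at h3
    exact T2 w (s • w) hww hw hw' t _ e _ h h' h1 h3
  · have h1 := H.hom_conj (h := s) h
    have h3 := H.inc_smul (g := s) h'
    rw [ssw] at h1
    exact T2 w (s • w) hww hw hw' _ t _ e h1 h3 h h'

/-- The main theorem on planes with many involutory homologies. -/
theorem primePow_of_hom [Finite G] (hi : ∀ s : G, s * s = 1 → s ≠ 1 → ∃ c l, Hom2 I s c l)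
    (h2 : ∀ x y : P, x ≠ y → ∃ s : G, s ≠ 1 ∧ s * s = 1 ∧ s • x = x ∧ s • y = y)
    (h2' : ∀ x y : L, x ≠ y → ∃ s : G, s ≠ 1 ∧ s * s = 1 ∧ s • x = x ∧ s • y = y) :
    IsPrimePow n := by
  haveI := H.faithful_L
  have hL : ∀ l, ∃ (s : G) (c : P), Hom2 I s c l := H.axis_of_two hi h2
  have hi' : ∀ s : G, s * s = 1 → s ≠ 1 → ∃ c l, Hom2 (fun l x => I x l) s c l := by
    intro s ss s1
    obtain ⟨c, l, h⟩ := hi s ss s1
    exact ⟨l, c, h.dual⟩
  have hP : ∀ D, ∃ (s : G) (d : L), Hom2 I s D d := by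
    intro D
    obtain ⟨s, d, h⟩ := H.dual.axis_of_two hi' h2' D
    exact ⟨s, d, h.dual⟩
  obtain ⟨e, X, l, h1, hX, he⟩ := H.exists_elation hP hL
  by_cases hu : ∀ (f : G) D, f ≠ 1 → I D l → Per I f D l → D = X
  · obtain ⟨m, f, hml, hf, hXm, pf⟩ := H.other_axis hP hL hX he h1 hu
    refine H.dual.full_primePow (l := X) (fun D hD => ?_)
    exact H.dual.full_of_two (fun D => by
      obtain ⟨s, c, h⟩ := hL D
      exact ⟨s, c, h.dual⟩) (X := l) (X' := m) hX he.dual h1 hXm pf.dual hf hml.symm D hD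
  · push Not at hu
    obtain ⟨f, D, hf, hD, pf, hDX⟩ := hu
    exact H.full_primePow (l := l) (fun D' hD' =>
      H.full_of_two hP hX he h1 hD pf hf hDX.symm D' hD')

end PA

end Cfsg.Agent.OW
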