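import Cfsg.Agent.OW.HomPlane

/-!
# Fixed planes of two-subgroups
-/

set_option autoImplicit false
set_option linter.unusedSectionVars false

namespace Cfsg.Agent.OW

open MulAction

/-! ### The collineation group -/

section Col

variable {P L : Type*}

/-- The collineation group. -/
def Col (I : P → L → Prop) : Subgroup (Equiv.Perm P × Equiv.Perm L) where
  carrier := {s | ∀ x l, I (s.1 x) (s.2 l) ↔ I x l}
  one_mem' := fun _ _ => Iff.rfl
  mul_mem' := by
    intro s t hs ht x l
    exact (hs (t.1 x) (t.2 l)).trans (ht x l)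
  inv_mem' := by
    intro s hs x l
    have := hs (s.1⁻¹ x) (s.2⁻¹ l)
    have e1 : s.1 (s.1⁻¹ x) = x := s.1.apply_symm_apply x
    have e2 : s.2 (s.2⁻¹ l) = l := s.2.apply_symm_apply l
    rw [e1, e2] at this
    exact this.symm

instance (I : P → L → Prop) : MulAction (Col I) P where
  smul s x := s.1.1 x
  one_smul _ := rfl
  mul_smul _ _ _ := rfl

instance (I : P → L → Prop) : MulAction (Col I) L where
  smul s x := s.1.2 x
  one_smul _ := rfl
  mul_smul _ _ _ := rfl

theorem col_smulP {I : P → L → Prop} (s : Col I) (x : P) : s • x = s.1.1 x := rfl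

theorem col_smulL {I : P → L → Prop} (s : Col I) (x : L) : s • x = s.1.2 x := rfl

theorem Pl.col {I : P → L → Prop} {n : ℕ} (H : Pl I n) : PA (Col I) I n :=
  { H with inv := fun g x l => g.2 x l }

theorem Pl.col_faithful [Finite P] [Finite L] {I : P → L → Prop} {n : ℕ} (H : Pl I n) :
    FaithfulSMul (Col I) P := by
  constructor
  intro g g' h
  apply Subtype.ext
  have h1 : ∀ x : P, (g'⁻¹ * g) • x = x := by
    intro x
    rw [mul_smul, h x, inv_smul_smul]
  have h2 := H.col.triv_L h1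
  apply Prod.ext
  · ext x
    exact h x
  · ext l
    have := h2 l
    rw [mul_smul, inv_smul_eq_iff] at this
    exact this

/-- The theorem on planes with many homologies for an action that may not be faithful. -/
theorem primePow_of_hom' {N : Type*} [Group N] [Finite N] [MulAction N P] [MulAction N L]
    [Finite P] [Finite L] {I : P → L → Prop} {n : ℕ} (H : PA N I n)
    (hi : ∀ g : N, (∀ x : P, g • g • x = x) → (∃ x : P, g • x ≠ x) →
      ∃ c l, Per I g c l ∧ ¬ I c l)
    (h2 : ∀ x y : P, x ≠ y → ∃ g : N, (∀ z : P, g • g • z = z) ∧ (∃ z : P, g • z ≠ z) ∧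
      g • x = x ∧ g • y = y)
    (h2' : ∀ x y : L, x ≠ y → ∃ g : N, (∀ z : P, g • g • z = z) ∧ (∃ z : P, g • z ≠ z) ∧
      g • x = x ∧ g • y = y) : IsPrimePow n := by
  haveI := H.toPl.col_faithful
  let φ : N →* Col I :=
    { toFun := fun g => ⟨(MulAction.toPerm g, MulAction.toPerm g), fun x l => H.inv g x l⟩
      map_one' := by
        apply Subtype.ext
        apply Prod.ext
        · ext x; exact one_smul N x
        · ext x; exact one_smul N x
      map_mul' := by
        intro g h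
        apply Subtype.ext
        apply Prod.ext
        · ext x; exact mul_smul g h x
        · ext x; exact mul_smul g h x }
  have φP : ∀ (g : N) (x : P), φ g • x = g • x := fun _ _ => rfl
  have φL : ∀ (g : N) (x : L), φ g • x = g • x := fun _ _ => rfl
  let K := φ.range
  have H' : PA K I n := { H.toPl with inv := fun g x l => g.1.2 x l }
  haveI : FaithfulSMul K P := by
    constructor
    intro g g' h
    exact Subtype.ext (FaithfulSMul.eq_of_smul_eq_smul (α := P) h)
  have sq : ∀ g : N, (∀ z : P, g • g • z = z) → φ g * φ g = 1 := by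
    intro g hg
    apply FaithfulSMul.eq_of_smul_eq_smul (α := P)
    intro z
    rw [mul_smul, one_smul]
    exact hg z
  have ne : ∀ g : N, (∃ z : P, g • z ≠ z) → φ g ≠ 1 := by
    rintro g ⟨z, hz⟩ h
    apply hz
    rw [← φP, h, one_smul]
  refine H'.primePow_of_hom ?_ ?_ ?_
  · rintro ⟨s, g, rfl⟩ ss s1
    have ss' : φ g * φ g = 1 := congrArg Subtype.val ss
    have s1' : φ g ≠ 1 := fun h => s1 (Subtype.ext h)
    have h3 : ∃ x : P, φ g • x ≠ x := nt_of_ne s1'
    obtain ⟨c, l, hp, hcl⟩ := hi g (fun x => by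
      have : (φ g * φ g) • x = x := by rw [ss', one_smul]
      rw [mul_smul] at this
      exact this) h3
    exact ⟨c, l, ss, s1, ⟨fun x hx => hp.1 x hx, fun x hx => hp.2 x hx⟩, hcl⟩
  · intro x y hxy
    obtain ⟨g, g2, gn, gx, gy⟩ := h2 x y hxy
    refine ⟨⟨φ g, g, rfl⟩, ?_, ?_, gx, gy⟩
    · intro h
      exact ne g gn (congrArg Subtype.val h)
    · exact Subtype.ext (sq g g2)
  · intro x y hxy
    obtain ⟨g, g2, gn, gx, gy⟩ := h2' x y hxy
    refine ⟨⟨φ g, g, rfl⟩, ?_, ?_, gx, gy⟩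
    · intro h
      exact ne g gn (congrArg Subtype.val h)
    · exact Subtype.ext (sq g g2)

end Col

/-! ### Fixed planes -/

/-- Elements fixed by a subgroup. -/
def FX {G : Type*} [Group G] (U : Subgroup G) (X : Type*) [MulAction G X] : Set X :=
  {x | ∀ u ∈ U, u • x = x}

instance normAct {G X : Type*} [Group G] [MulAction G X] (U : Subgroup G) :
    MulAction (Subgroup.normalizer (U : Set G)) (FX U X) where
  smul g x := ⟨(g : G) • (x : X), by
    intro u hu
    have h1 : (g : G)⁻¹ * u * g ∈ U := by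
      have := (g.2 ((g : G)⁻¹ * u * g)).mpr
      apply this
      have e : (g : G) * ((g : G)⁻¹ * u * g) * (g : G)⁻¹ = u := by group
      rw [e]
      exact hu
    have := x.2 _ h1
    rw [mul_smul, mul_smul, inv_smul_eq_iff] at this
    exact this⟩
  one_smul x := Subtype.ext (one_smul G x.1)
  mul_smul g h x := Subtype.ext (mul_smul g.1 h.1 x.1)

theorem normAct_val {G X : Type*} [Group G] [MulAction G X] {U : Subgroup G}
    (g : Subgroup.normalizer (U : Set G)) (x : FX U X) : ((g • x : FX U X) : X) = (g : G) • x.1 :=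
  rfl

/-- The incidence between fixed elements. -/
def FU {G P L : Type*} [Group G] [MulAction G P] [MulAction G L] (I : P → L → Prop)
    (U : Subgroup G) : FX U P → FX U L → Prop := fun x l => I x.1 l.1

theorem mem_FX_sup {G X : Type*} [Group G] [MulAction G X] {U : Subgroup G} {g : G} {x : X}
    (hx : x ∈ FX U X) (hg : g • x = x) : x ∈ FX (Subgroup.zpowers g ⊔ U) X := by
  have h1 : Subgroup.zpowers g ⊔ U ≤ stabilizer G x := by
    refine sup_le (Subgroup.zpowers_le.mpr hg) ?_
    intro u hu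
    exact hx u hu
  intro u hu
  exact h1 hu

section

variable {G P L : Type*} [Group G] [MulAction G P] [MulAction G L] {I : P → L → Prop} {n : ℕ}

theorem cfg_mono {U M : Subgroup G} (h : M ≤ U) (hc : Cfg (FU I U)) : Cfg (FU I M) := by
  obtain ⟨p1, p2, p3, l1, l2, l3, h1⟩ := hc
  exact ⟨⟨p1.1, fun u hu => p1.2 u (h hu)⟩, ⟨p2.1, fun u hu => p2.2 u (h hu)⟩,
    ⟨p3.1, fun u hu => p3.2 u (h hu)⟩, ⟨l1.1, fun u hu => l1.2 u (h hu)⟩,
    ⟨l2.1, fun u hu => l2.2 u (h hu)⟩, ⟨l3.1, fun u hu => l3.2 u (h hu)⟩, h1⟩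

theorem cfg_of_FI {U V : Subgroup G} {g : Subgroup.normalizer (U : Set G)}
    (hP : ∀ x : FX U P, g • x = x → x.1 ∈ FX V P) (hL : ∀ l : FX U L, g • l = l → l.1 ∈ FX V L)
    (hc : Cfg (FI (FU I U) g)) : Cfg (FU I V) := by
  obtain ⟨p1, p2, p3, l1, l2, l3, h1⟩ := hc
  exact ⟨⟨p1.1.1, hP p1.1 p1.2⟩, ⟨p2.1.1, hP p2.1 p2.2⟩, ⟨p3.1.1, hP p3.1 p3.2⟩,
    ⟨l1.1.1, hL l1.1 l1.2⟩, ⟨l2.1.1, hL l2.1 l2.2⟩, ⟨l3.1.1, hL l3.1 l3.2⟩, h1⟩

namespace PA

theorem fu (H : PA G I n) {U : Subgroup G} {m : ℕ} (hm : Pl (FU I U) m) :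
    PA (Subgroup.normalizer (U : Set G)) (FU I U) m :=
  { hm with inv := fun g x l => H.inv g.1 x.1 l.1 }

variable [Finite P] [Finite L] (H : PA G I n)
include H

theorem fu_pl {U : Subgroup G} (hc : Cfg (FU I U)) : ∃ m, Pl (FU I U) m := by
  refine Pl.of_cfg ?_ ?_ ?_ hc
  · rintro ⟨x, gx⟩ ⟨y, gy⟩ hxy
    have hxy' : x ≠ y := fun e => hxy (Subtype.ext e)
    obtain ⟨l, h1, h2⟩ := H.join x y hxy'
    exact ⟨⟨l, fun u hu => H.fixL hxy' h1 h2 (gx u hu) (gy u hu)⟩, h1, h2⟩
  · rintro ⟨x, gx⟩ ⟨y, gy⟩ hxy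
    have hxy' : x ≠ y := fun e => hxy (Subtype.ext e)
    obtain ⟨l, h1, h2⟩ := H.meet x y hxy'
    exact ⟨⟨l, fun u hu => H.fixP hxy' h1 h2 (gx u hu) (gy u hu)⟩, h1, h2⟩
  · rintro ⟨x, gx⟩ ⟨y, gy⟩ ⟨l, gl⟩ ⟨m, gm⟩ h1 h2 h3 h4 hxy
    exact Subtype.ext (H.uniq h1 h2 h3 h4 (fun e => hxy (Subtype.ext e)))

/-- The order of the plane is a power of the order of the fixed plane of a 2-group. -/
theorem chain [Finite G] (N : ℕ) : ∀ (U : Subgroup G), Nat.card U = N → IsPGroup 2 U →
    ∀ m, Pl (FU I U) m → ∃ j, n = m ^ (2 ^ j) := by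
  induction N using Nat.strong_induction_on with
  | _ N ih =>
  intro U hUN hU m hm
  by_cases hbot : U = ⊥
  · subst hbot
    refine ⟨0, ?_⟩
    have h1 : Nat.card (FX (⊥ : Subgroup G) P) = Nat.card P := by
      refine Nat.card_congr ⟨fun x => x.1, fun x => ⟨x, fun u hu => ?_⟩, fun x => rfl,
        fun x => rfl⟩
      rw [Subgroup.mem_bot] at hu
      rw [hu, one_smul]
    rw [hm.cP, H.cP] at h1
    rw [pow_zero, pow_one]
    rcases Nat.lt_trichotomy m n with h | h | h
    · nlinarith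
    · exact h.symm
    · nlinarith
  · haveI : Fact (Nat.Prime 2) := ⟨Nat.prime_two⟩
    obtain ⟨a, ha⟩ := IsPGroup.iff_card.mp hU
    have ha0 : a ≠ 0 := by
      rintro rfl
      rw [pow_zero, Subgroup.card_eq_one] at ha
      exact hbot ha
    obtain ⟨b, rfl⟩ : ∃ b, a = b + 1 := ⟨a - 1, by omega⟩
    obtain ⟨M0, hM0⟩ := Sylow.exists_subgroup_card_pow_prime (G := U) 2 (n := b)
      (by rw [ha]; exact pow_dvd_pow 2 (by omega))
    have hidx : M0.index = 2 := by
      have h1 := M0.card_mul_index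
      rw [ha, hM0, pow_succ] at h1
      exact Nat.eq_of_mul_eq_mul_left (by positivity) h1
    let M := M0.map U.subtype
    have hMU : M ≤ U := Subgroup.map_subtype_le M0
    have memM : ∀ u : U, (u : G) ∈ M ↔ u ∈ M0 := by
      intro u
      constructor
      · rintro ⟨v, hv, e⟩
        have : v = u := Subtype.ext e
        rwa [← this]
      · intro h
        exact ⟨u, h, rfl⟩
    have hMcard : Nat.card M = 2 ^ b := by
      rw [← hM0]
      exact Nat.card_congr (Subgroup.equivMapOfInjective M0 U.subtype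
        U.subtype_injective).symm.toEquiv
    have hM2 : IsPGroup 2 M := IsPGroup.of_card hMcard
    obtain ⟨u, huM⟩ : ∃ u : U, u ∉ M0 := by
      by_contra hcon
      push Not at hcon
      have : M0 = ⊤ := by
        ext x; simp [hcon x]
      rw [this, Subgroup.index_top] at hidx
      omega
    have hn0 : (u : G) ∈ Subgroup.normalizer (M : Set G) := by
      haveI := Subgroup.normal_of_index_eq_two hidx
      have conj : ∀ (w : U) (g : G), g ∈ M → (w : G) * g * (w : G)⁻¹ ∈ M := by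
        intro w g hg
        have hgU := hMU hg
        have h1 : (⟨g, hgU⟩ : U) ∈ M0 := (memM ⟨g, hgU⟩).mp hg
        exact (memM (w * ⟨g, hgU⟩ * w⁻¹)).mpr (Subgroup.Normal.conj_mem inferInstance _ h1 w)
      intro g
      constructor
      · intro hg
        exact conj u g hg
      · intro hg
        have := conj u⁻¹ _ hg
        have e : ((u⁻¹ : U) : G) * ((u : G) * g * (u : G)⁻¹) * ((u⁻¹ : U) : G)⁻¹ = g := by
          rw [Subgroup.coe_inv]; group
        rw [e] at this
        exact this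
    have hsq : (u : G) * u ∈ M := by
      have h1 := Subgroup.sq_mem_of_index_two hidx u
      rw [pow_two] at h1
      exact (memM (u * u)).mpr h1
    -- elements fixed by `M` and `u` are fixed by `U`
    have hfixU : ∀ {X : Type _} [MulAction G X] (x : X), x ∈ FX M X → (u : G) • x = x →
        x ∈ FX U X := by
      intro X _ x hx hux v hv
      by_cases h : (⟨v, hv⟩ : U) ∈ M0
      · exact hx v ((memM ⟨v, hv⟩).mpr h)
      · have h1 : u⁻¹ * ⟨v, hv⟩ ∈ M0 := by
          rw [Subgroup.mul_mem_iff_of_index_two hidx, inv_mem_iff]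
          exact ⟨fun h' => absurd h' huM, fun h' => absurd h' h⟩
        have h2 := hx _ ((memM _).mpr h1)
        have h3 : ((u⁻¹ * ⟨v, hv⟩ : U) : G) = (u : G)⁻¹ * v := rfl
        rw [h3, mul_smul, inv_smul_eq_iff, hux] at h2
        exact h2
    have hcU : Cfg (FU I U) := hm.cfg
    obtain ⟨m', hm'⟩ := H.fu_pl (cfg_mono hMU hcU)
    obtain ⟨j, hj⟩ := ih (Nat.card M) (by
      rw [hMcard, ← hUN, ha]
      exact Nat.pow_lt_pow_right (by norm_num) (by omega)) M rfl hM2 m' hm'
    let u' : Subgroup.normalizer (M : Set G) := ⟨u, hn0⟩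
    have H' := H.fu hm'
    have hu2 : ∀ x : FX M P, u' • u' • x = x := by
      intro x
      apply Subtype.ext
      rw [normAct_val, normAct_val]
      change (u : G) • (u : G) • x.1 = x.1
      rw [← mul_smul]
      exact x.2 _ hsq
    by_cases hn : ∃ x : FX M P, u' • x ≠ x
    · have hc : Cfg (FI (FU I M) u') := by
        obtain ⟨p1, p2, p3, l1, l2, l3, h1⟩ := hcU
        exact ⟨⟨⟨p1.1, fun v hv => p1.2 v (hMU hv)⟩, Subtype.ext (p1.2 u u.2)⟩,
          ⟨⟨p2.1, fun v hv => p2.2 v (hMU hv)⟩, Subtype.ext (p2.2 u u.2)⟩,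
          ⟨⟨p3.1, fun v hv => p3.2 v (hMU hv)⟩, Subtype.ext (p3.2 u u.2)⟩,
          ⟨⟨l1.1, fun v hv => l1.2 v (hMU hv)⟩, Subtype.ext (l1.2 u u.2)⟩,
          ⟨⟨l2.1, fun v hv => l2.2 v (hMU hv)⟩, Subtype.ext (l2.2 u u.2)⟩,
          ⟨⟨l3.1, fun v hv => l3.2 v (hMU hv)⟩, Subtype.ext (l3.2 u u.2)⟩, h1⟩
      obtain ⟨m'', hm''⟩ := H'.fi_pl hc
      have h1 := H'.inv_baer hu2 hn hm''
      have h2 : Nat.card {x : FX M P // u' • x = x} = Nat.card (FX U P) := by
        refine Nat.card_congr ⟨fun x => ⟨x.1.1, hfixU x.1.1 x.1.2 (congrArg Subtype.val x.2)⟩,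
          fun x => ⟨⟨x.1, fun v hv => x.2 v (hMU hv)⟩, Subtype.ext (x.2 u u.2)⟩, ?_, ?_⟩
        · intro x; rfl
        · intro x; rfl
      rw [hm''.cP, hm.cP] at h2
      have h3 : m'' = m := by
        rcases Nat.lt_trichotomy m'' m with h | h | h
        · nlinarith
        · exact h
        · nlinarith
      refine ⟨j + 1, ?_⟩
      rw [hj, h1, h3, ← pow_mul]
      congr 1
      ring
    · push Not at hn
      have h2 : Nat.card (FX M P) = Nat.card (FX U P) := by
        refine Nat.card_congr ⟨fun x => ⟨x.1, hfixU x.1 x.2 (congrArg Subtype.val (hn x))⟩,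
          fun x => ⟨x.1, fun v hv => x.2 v (hMU hv)⟩, ?_, ?_⟩
        · intro x; rfl
        · intro x; rfl
      rw [hm'.cP, hm.cP] at h2
      have h3 : m' = m := by
        rcases Nat.lt_trichotomy m' m with h | h | h
        · nlinarith
        · exact h
        · nlinarith
      exact ⟨j, by rw [hj, h3]⟩

end PA

end

end Cfsg.Agent.OW
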