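import Cfsg.Agent.OW.Local

/-!
# The order of a plane of odd order with a 2-transitive group is a prime power
-/

set_option autoImplicit false
set_option linter.unusedSectionVars false

namespace Cfsg.Agent.OW

open MulAction
open scoped Pointwise

section Syl

variable {G : Type*} [Group G] [Finite G] {p : ℕ} [Fact p.Prime]

theorem card_le_syl {A V : Subgroup G} (hVA : V ≤ A) (hV : IsPGroup p V) :
    Nat.card V ≤ p ^ (Nat.card A).factorization p := by
  obtain ⟨j, hj⟩ := IsPGroup.iff_card.mp hV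
  rw [hj]
  have h1 : p ^ j ∣ Nat.card A := by
    rw [← hj]
    exact Subgroup.card_dvd_of_le hVA
  exact Nat.pow_le_pow_right (Fact.out : p.Prime).pos
    (((Fact.out : p.Prime).pow_dvd_iff_le_factorization Nat.card_pos.ne').mp h1)

theorem sylow_in {A U : Subgroup G} (hUA : U ≤ A) (hU : IsPGroup p U) :
    ∃ B : Subgroup G, U ≤ B ∧ B ≤ A ∧ IsPGroup p B ∧
      Nat.card B = p ^ (Nat.card A).factorization p := by
  have hU' : IsPGroup p (U.subgroupOf A) := by
    refine hU.of_injective (Subgroup.inclusion ?_ |>.comp (MonoidHom.mk' (fun x =>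
      (⟨x.1.1, x.2⟩ : U)) (fun a b => rfl))) ?_
    · exact le_rfl
    · intro a b h
      exact Subtype.ext (Subtype.ext (congrArg (fun z : U => (z : G)) h))
  obtain ⟨Q, hQ⟩ := hU'.exists_le_sylow
  refine ⟨(Q : Subgroup A).map A.subtype, ?_, Subgroup.map_subtype_le _, Q.2.map _, ?_⟩
  · intro u hu
    exact ⟨⟨u, hUA hu⟩, hQ (show (⟨u, hUA hu⟩ : A) ∈ U.subgroupOf A from hu), rfl⟩
  · rw [← Sylow.card_eq_multiplicity Q]
    exact Nat.card_congr (Subgroup.equivMapOfInjective (Q : Subgroup A) A.subtype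
      A.subtype_injective).symm.toEquiv

theorem card_subgroupOf {A V : Subgroup G} (hVA : V ≤ A) :
    Nat.card (V.subgroupOf A) = Nat.card V :=
  Nat.card_congr (Subgroup.subgroupOfEquivOfLe hVA).toEquiv

theorem syl_conj {A V B : Subgroup G} (hVA : V ≤ A) (hBA : B ≤ A)
    (hV : Nat.card V = p ^ (Nat.card A).factorization p)
    (hB : Nat.card B = p ^ (Nat.card A).factorization p) :
    ∃ a ∈ A, ∀ v : G, v ∈ V ↔ a * v * a⁻¹ ∈ B := by
  let S1 : Sylow p A := Sylow.ofCard (V.subgroupOf A) (by rw [card_subgroupOf hVA, hV])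
  let S2 : Sylow p A := Sylow.ofCard (B.subgroupOf A) (by rw [card_subgroupOf hBA, hB])
  obtain ⟨a, ha⟩ := MulAction.exists_smul_eq A S1 S2
  have h1 : MulAut.conj a • (V.subgroupOf A) = B.subgroupOf A := by
    have := congrArg (fun S : Sylow p A => (S : Subgroup A)) ha
    exact this
  have key : ∀ v : A, v ∈ V.subgroupOf A ↔ a * v * a⁻¹ ∈ B.subgroupOf A := by
    intro v
    rw [← h1]
    exact (Subgroup.smul_mem_pointwise_smul_iff (a := MulAut.conj a) (S := V.subgroupOf A)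
      (x := v)).symm
  refine ⟨a, a.2, fun v => ?_⟩
  constructor
  · intro hv
    exact (key ⟨v, hVA hv⟩).mp hv
  · intro hv
    have hvA : v ∈ A := by
      have h2 := hBA hv
      have h3 := A.mul_mem (A.mul_mem (A.inv_mem a.2) h2) a.2
      have e : (a : G)⁻¹ * ((a : G) * v * (a : G)⁻¹) * (a : G) = v := by group
      rwa [e] at h3
    exact (key ⟨v, hvA⟩).mpr hv

end Syl

theorem isPGroup_zpowers_sup {G : Type*} [Group G] {p : ℕ} {U : Subgroup G} (hU : IsPGroup p U)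
    {g : G} (hg : g ∈ Subgroup.normalizer (U : Set G)) {a : ℕ} (ha : g ^ (p ^ a) = 1) :
    IsPGroup p (Subgroup.zpowers g ⊔ U : Subgroup G) := by
  refine IsPGroup.to_sup_of_normal_right' ?_ hU (Subgroup.zpowers_le.mpr hg)
  rintro ⟨x, i, rfl⟩
  refine ⟨a, ?_⟩
  apply Subtype.ext
  change (g ^ i) ^ (p ^ a) = 1
  rw [← zpow_natCast, ← zpow_mul, mul_comm, zpow_mul, zpow_natCast, ha, one_zpow]

theorem two_part {G : Type*} [Group G] [Finite G] (g : G) :
    ∃ m a, Odd m ∧ (g ^ m) ^ (2 ^ a) = 1 := by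
  obtain ⟨a, m, hm, h⟩ := Nat.exists_eq_two_pow_mul_odd (orderOf_pos g).ne'
  refine ⟨m, a, hm, ?_⟩
  rw [← pow_mul, mul_comm, ← h, pow_orderOf_eq_one]

theorem pow_odd_smul {G X : Type*} [Group G] [MulAction G X] {g : G} {x : X}
    (h : g • g • x = x) {m : ℕ} (hm : Odd m) : g ^ m • x = g • x := by
  obtain ⟨i, rfl⟩ := hm
  rw [pow_succ', mul_smul]
  congr 1
  induction i with
  | zero => rw [mul_zero, pow_zero, one_smul]
  | succ i ih =>
    rw [show 2 * (i + 1) = 2 * i + 1 + 1 by ring, pow_succ, pow_succ, mul_smul, mul_smul, h, ih]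

variable {G P L : Type*} [Group G] [MulAction G P] [MulAction G L] {I : P → L → Prop} {n : ℕ}

/-- power of an element that acts as an involution -/
theorem exists_inv_pow {X : Type*} [MulAction G X] {g : G} {a : ℕ} (ha : g ^ (2 ^ a) = 1)
    (hn : ∃ x : X, g • x ≠ x) :
    ∃ j : ℕ, (∃ x : X, g ^ (2 ^ j) • x ≠ x) ∧ ∀ x : X, g ^ (2 ^ j) • g ^ (2 ^ j) • x = x := by
  classical
  have hex : ∃ j : ℕ, ∀ x : X, g ^ (2 ^ j) • x = x := ⟨a, fun x => by rw [ha, one_smul]⟩
  have h1 := Nat.find_spec hex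
  have h2 : Nat.find hex ≠ 0 := by
    intro h0
    rw [h0] at h1
    obtain ⟨x, hx⟩ := hn
    apply hx
    have := h1 x
    rwa [pow_zero, pow_one] at this
  obtain ⟨j, hj⟩ : ∃ j, Nat.find hex = j + 1 := ⟨Nat.find hex - 1, by omega⟩
  refine ⟨j, ?_, ?_⟩
  · have := Nat.find_min hex (m := j) (by omega)
    push Not at this
    exact this
  · intro x
    rw [← mul_smul, ← pow_add, ← two_mul, ← pow_succ', ← hj]
    exact h1 x

namespace PA

variable [Finite P] [Finite L] (H : PA G I n)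
include H

theorem no_cfg [Finite G] (hodd : Odd n)
    (tP : ∀ x y x' y' : P, x ≠ y → x' ≠ y' → ∃ g : G, g • x = x' ∧ g • y = y')
    {B : Subgroup G} (hB : IsPGroup 2 B) {x y : P} (hxy : x ≠ y) (hBx : x ∈ FX B P)
    (hBy : y ∈ FX B P)
    (hcard : Nat.card B = 2 ^ (Nat.card (stabilizer G x ⊓ stabilizer G y : Subgroup
      G)).factorization 2) : ¬ Cfg (FU I B) := by
  intro hc
  haveI : Fact (Nat.Prime 2) := ⟨Nat.prime_two⟩
  obtain ⟨m, hm⟩ := H.fu_pl hc
  have H' := H.fu hm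
  set A : Subgroup G := stabilizer G x ⊓ stabilizer G y with hA
  have hBA : B ≤ A := fun b hb => ⟨hBx b hb, hBy b hb⟩
  obtain ⟨g, gx, gy⟩ := tP x y y x hxy hxy.symm
  have gx' : g⁻¹ • x = y := by rw [inv_smul_eq_iff, gy]
  have gy' : g⁻¹ • y = x := by rw [inv_smul_eq_iff, gx]
  let V := B.map (MulAut.conj g).toMonoidHom
  have hVA : V ≤ A := by
    rintro _ ⟨b, hb, rfl⟩
    have e : (MulAut.conj g).toMonoidHom b = g * b * g⁻¹ := rfl
    rw [e]
    constructor
    · change (g * b * g⁻¹) • x = x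
      rw [mul_smul, mul_smul, gx', hBy b hb, gy]
    · change (g * b * g⁻¹) • y = y
      rw [mul_smul, mul_smul, gy', hBx b hb, gx]
  have hVc : Nat.card V = Nat.card B :=
    Nat.card_congr (Subgroup.equivMapOfInjective B (MulAut.conj g).toMonoidHom
      (MulAut.conj g).injective).symm.toEquiv
  obtain ⟨a, haA, hav⟩ := syl_conj (p := 2) hVA hBA (by rw [hVc, hcard]) hcard
  have hN : a * g ∈ Subgroup.normalizer (B : Set G) := by
    intro b
    have h1 : b ∈ B ↔ g * b * g⁻¹ ∈ V := by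
      constructor
      · intro hb
        exact ⟨b, hb, rfl⟩
      · rintro ⟨b', hb', e⟩
        have : (MulAut.conj g) b' = (MulAut.conj g) b := e
        rwa [← (MulAut.conj g).injective this]
    have h2 : a * g * b * (a * g)⁻¹ = a * (g * b * g⁻¹) * a⁻¹ := by group
    change b ∈ B ↔ a * g * b * (a * g)⁻¹ ∈ B
    rw [h1, hav, h2]
  have g1x : (a * g) • x = y := by rw [mul_smul, gx]; exact haA.2
  have g1y : (a * g) • y = x := by rw [mul_smul, gy]; exact haA.1
  let G1 : Subgroup.normalizer (B : Set G) := ⟨a * g, hN⟩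
  let x' : FX B P := ⟨x, hBx⟩
  let y' : FX B P := ⟨y, hBy⟩
  have hxy' : x' ≠ y' := fun e => hxy (congrArg Subtype.val e)
  have G1x : G1 • x' = y' := Subtype.ext g1x
  have G1y : G1 • y' = x' := Subtype.ext g1y
  obtain ⟨m0, r, hm0, hr⟩ := two_part G1
  have G2x : G1 ^ m0 • x' = y' := by
    rw [pow_odd_smul (by rw [G1x, G1y]) hm0, G1x]
  obtain ⟨j, hj1, hj2⟩ := exists_inv_pow (X := FX B P) hr ⟨x', by rw [G2x]; exact hxy'.symm⟩
  set S := (G1 ^ m0) ^ (2 ^ j) with hS
  obtain ⟨u, v, huv, hu, hv⟩ := H'.inv_two hj2 hj1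
  have hSr : (S : G) ^ (2 ^ r) = 1 := by
    have : S ^ (2 ^ r) = 1 := by
      rw [hS, ← pow_mul, mul_comm, pow_mul, hr, one_pow]
    rw [← Subgroup.coe_pow, this, Subgroup.coe_one]
  have hW := isPGroup_zpowers_sup hB S.2 hSr
  set W : Subgroup G := Subgroup.zpowers (S : G) ⊔ B with hWdef
  have hWu : u.1 ∈ FX W P := mem_FX_sup u.2 (congrArg Subtype.val hu)
  have hWv : v.1 ∈ FX W P := mem_FX_sup v.2 (congrArg Subtype.val hv)
  have huv' : u.1 ≠ v.1 := fun e => huv (Subtype.ext e)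
  obtain ⟨g3, g3u, g3v⟩ := tP u.1 v.1 x y huv' hxy
  have g3x : g3⁻¹ • x = u.1 := by rw [inv_smul_eq_iff, g3u]
  have g3y : g3⁻¹ • y = v.1 := by rw [inv_smul_eq_iff, g3v]
  let V' := W.map (MulAut.conj g3).toMonoidHom
  have hVA' : V' ≤ A := by
    rintro _ ⟨b, hb, rfl⟩
    have e : (MulAut.conj g3).toMonoidHom b = g3 * b * g3⁻¹ := rfl
    rw [e]
    constructor
    · change (g3 * b * g3⁻¹) • x = x
      rw [mul_smul, mul_smul, g3x, hWu b hb, g3u]
    · change (g3 * b * g3⁻¹) • y = y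
      rw [mul_smul, mul_smul, g3y, hWv b hb, g3v]
  have hVc' : Nat.card V' = Nat.card W :=
    Nat.card_congr (Subgroup.equivMapOfInjective W (MulAut.conj g3).toMonoidHom
      (MulAut.conj g3).injective).symm.toEquiv
  have h1 := card_le_syl (p := 2) hVA' (hW.map _)
  rw [hVc', ← hcard] at h1
  have hBW : B ≤ W := le_sup_right
  have h2 : B = W := Subgroup.eq_of_le_of_card_ge hBW h1
  have h3 : (S : G) ∈ B :=
    h2.ge ((le_sup_left : Subgroup.zpowers (S : G) ≤ W) (Subgroup.mem_zpowers _))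
  obtain ⟨z, hz⟩ := hj1
  exact hz (Subtype.ext (z.2 _ h3))

theorem two_fixed [Finite G] (hodd : Odd n)
    (tP : ∀ x y x' y' : P, x ≠ y → x' ≠ y' → ∃ g : G, g • x = x' ∧ g • y = y')
    {U : Subgroup G} (hU : IsPGroup 2 U) (hcU : Cfg (FU I U))
    (hmax : ∀ V : Subgroup G, U ≤ V → IsPGroup 2 V → Cfg (FU I V) → V = U)
    (x y : FX U P) (hxy : x ≠ y) :
    ∃ g : Subgroup.normalizer (U : Set G), (∀ z : FX U P, g • g • z = z) ∧
      (∃ z : FX U P, g • z ≠ z) ∧ g • x = x ∧ g • y = y := by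
  haveI : Fact (Nat.Prime 2) := ⟨Nat.prime_two⟩
  have hxy' : x.1 ≠ y.1 := fun e => hxy (Subtype.ext e)
  obtain ⟨m, hm⟩ := H.fu_pl hcU
  have H' := H.fu hm
  set A : Subgroup G := stabilizer G x.1 ⊓ stabilizer G y.1 with hA
  have hUA : U ≤ A := fun b hb => ⟨x.2 b hb, y.2 b hb⟩
  obtain ⟨B, hUB, hBA, hB, hBc⟩ := sylow_in (p := 2) hUA hU
  have hBx : x.1 ∈ FX B P := fun b hb => (hBA hb).1
  have hBy : y.1 ∈ FX B P := fun b hb => (hBA hb).2
  have hnc := H.no_cfg hodd tP hB hxy' hBx hBy hBc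
  have hne : U.subgroupOf B < ⊤ := by
    rw [lt_top_iff_ne_top]
    intro h
    rw [Subgroup.subgroupOf_eq_top] at h
    exact hnc (le_antisymm hUB h ▸ hcU)
  haveI : Group.IsNilpotent B := hB.isNilpotent
  have hlt := Group.normalizerCondition_of_isNilpotent _ hne
  obtain ⟨b, hbN, hbU⟩ := SetLike.exists_of_lt hlt
  have hbN' : (b : G) ∈ Subgroup.normalizer (U : Set G) := by
    intro h
    constructor
    · intro hh
      exact (hbN ⟨h, hUB hh⟩).mp hh
    · intro hh
      have hB' : h ∈ B := by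
        have h3 := B.mul_mem (B.mul_mem (B.inv_mem b.2) (hUB hh)) b.2
        have e : (b : G)⁻¹ * ((b : G) * h * (b : G)⁻¹) * (b : G) = h := by group
        rwa [e] at h3
      exact (hbN ⟨h, hB'⟩).mpr hh
  obtain ⟨a, ha⟩ := hB b
  have ha' : (b : G) ^ (2 ^ a) = 1 := by
    rw [← Subgroup.coe_pow, ha, Subgroup.coe_one]
  classical
  have hex : ∃ j : ℕ, (b : G) ^ (2 ^ j) ∈ U := ⟨a, by rw [ha']; exact U.one_mem⟩
  have h1 := Nat.find_spec hex
  have h2 : Nat.find hex ≠ 0 := by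
    intro h0
    rw [h0, pow_zero, pow_one] at h1
    exact hbU h1
  obtain ⟨j, hj⟩ : ∃ j, Nat.find hex = j + 1 := ⟨Nat.find hex - 1, by omega⟩
  have hg1 : (b : G) ^ (2 ^ j) ∉ U := Nat.find_min hex (m := j) (by omega)
  have hg2 : (b : G) ^ (2 ^ j) * (b : G) ^ (2 ^ j) ∈ U := by
    rw [← pow_add, ← two_mul, ← pow_succ', ← hj]
    exact h1
  let g : Subgroup.normalizer (U : Set G) := ⟨(b : G), hbN'⟩ ^ (2 ^ j)
  have hgv : (g : G) = (b : G) ^ (2 ^ j) := rfl
  have hgB : (g : G) ∈ B := by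
    rw [hgv]; exact B.pow_mem b.2 _
  refine ⟨g, ?_, ?_, Subtype.ext (hBx _ hgB), Subtype.ext (hBy _ hgB)⟩
  · intro z
    apply Subtype.ext
    rw [normAct_val, normAct_val, ← mul_smul, hgv]
    exact z.2 _ hg2
  · by_contra hcon
    push Not at hcon
    have hconL := H'.triv_L hcon
    have hV := isPGroup_zpowers_sup hU g.2 (a := a) (by
      rw [hgv, ← pow_mul, mul_comm, pow_mul, ha', one_pow])
    have hcV : Cfg (FU I (Subgroup.zpowers (g : G) ⊔ U)) := by
      obtain ⟨p1, p2, p3, l1, l2, l3, h1⟩ := hcU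
      exact ⟨⟨p1.1, mem_FX_sup p1.2 (congrArg Subtype.val (hcon p1))⟩,
        ⟨p2.1, mem_FX_sup p2.2 (congrArg Subtype.val (hcon p2))⟩,
        ⟨p3.1, mem_FX_sup p3.2 (congrArg Subtype.val (hcon p3))⟩,
        ⟨l1.1, mem_FX_sup l1.2 (congrArg Subtype.val (hconL l1))⟩,
        ⟨l2.1, mem_FX_sup l2.2 (congrArg Subtype.val (hconL l2))⟩,
        ⟨l3.1, mem_FX_sup l3.2 (congrArg Subtype.val (hconL l3))⟩, h1⟩
    have h3 := hmax _ le_sup_right hV hcV
    have h4 : (g : G) ∈ Subgroup.zpowers (g : G) ⊔ U :=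
      (le_sup_left : Subgroup.zpowers (g : G) ≤ _) (Subgroup.mem_zpowers _)
    rw [h3, hgv] at h4
    exact hg1 h4

/-- The order of a plane of odd order with a 2-transitive group is a prime power. -/
theorem odd_primePow [Finite G] (hodd : Odd n)
    (tP : ∀ x y x' y' : P, x ≠ y → x' ≠ y' → ∃ g : G, g • x = x' ∧ g • y = y')
    (tL : ∀ x y x' y' : L, x ≠ y → x' ≠ y' → ∃ g : G, g • x = x' ∧ g • y = y') :
    IsPrimePow n := by
  classical
  haveI : Fact (Nat.Prime 2) := ⟨Nat.prime_two⟩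
  have hbot : Cfg (FU I (⊥ : Subgroup G)) := by
    have hf : ∀ {X : Type _} [MulAction G X] (x : X), x ∈ FX (⊥ : Subgroup G) X := by
      intro X _ x u hu
      rw [Subgroup.mem_bot] at hu
      rw [hu, one_smul]
    obtain ⟨p1, p2, p3, l1, l2, l3, h1⟩ := H.cfg
    exact ⟨⟨p1, hf _⟩, ⟨p2, hf _⟩, ⟨p3, hf _⟩, ⟨l1, fun u hu => by
      rw [Subgroup.mem_bot] at hu
      rw [hu, one_smul]⟩, ⟨l2, fun u hu => by
      rw [Subgroup.mem_bot] at hu
      rw [hu, one_smul]⟩, ⟨l3, fun u hu => by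
      rw [Subgroup.mem_bot] at hu
      rw [hu, one_smul]⟩, h1⟩
  obtain ⟨U, ⟨hU, hcU⟩, hUmax⟩ := Set.exists_max_image
    {V : Subgroup G | IsPGroup 2 V ∧ Cfg (FU I V)} (fun V => Nat.card V) (Set.toFinite _)
    ⟨⊥, IsPGroup.of_bot, hbot⟩
  have hmax : ∀ V : Subgroup G, U ≤ V → IsPGroup 2 V → Cfg (FU I V) → V = U := by
    intro V hUV hV hcV
    exact (Subgroup.eq_of_le_of_card_ge hUV (hUmax V ⟨hV, hcV⟩)).symm
  obtain ⟨k, hk⟩ := H.fu_pl hcU
  have H' := H.fu hk
  obtain ⟨j, hj⟩ := H.chain _ U rfl hU k hk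
  have hkodd : Odd k := by
    by_contra hcon
    rw [Nat.not_odd_iff_even] at hcon
    have h1 : Even n := by
      rw [hj]
      exact hcon.pow_of_ne_zero (by positivity)
    exact (Nat.not_even_iff_odd.mpr hodd) h1
  have hkpp : IsPrimePow k := by
    refine primePow_of_hom' H' ?_ ?_ ?_
    · intro g g2 gn
      have hnc : ¬ Cfg (FI (FU I U) g) := by
        intro hc
        obtain ⟨m0, r, hm0, hr⟩ := two_part g
        have g2L := H'.sq_L g2
        have hr' : ((g ^ m0 : Subgroup.normalizer (U : Set G)) : G) ^ (2 ^ r) = 1 := by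
          rw [← Subgroup.coe_pow, hr, Subgroup.coe_one]
        have hV := isPGroup_zpowers_sup hU (g ^ m0).2 hr'
        have hcV := cfg_of_FI
          (V := Subgroup.zpowers ((g ^ m0 : Subgroup.normalizer (U : Set G)) : G) ⊔ U)
          (fun x hx => mem_FX_sup x.2 (by
            have : g ^ m0 • x = x := by rw [pow_odd_smul (g2 x) hm0, hx]
            exact congrArg Subtype.val this))
          (fun x hx => mem_FX_sup x.2 (by
            have : g ^ m0 • x = x := by rw [pow_odd_smul (g2L x) hm0, hx]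
            exact congrArg Subtype.val this)) hc
        have h3 := hmax _ le_sup_right hV hcV
        have h4 : ((g ^ m0 : Subgroup.normalizer (U : Set G)) : G) ∈ U :=
          h3.le ((le_sup_left : Subgroup.zpowers ((g ^ m0 : Subgroup.normalizer (U : Set G)) : G)
            ≤ _) (Subgroup.mem_zpowers _))
        obtain ⟨z, hz⟩ := gn
        apply hz
        rw [← pow_odd_smul (g2 z) hm0]
        exact Subtype.ext (z.2 _ h4)
      obtain ⟨c, l, hp⟩ := H'.inv_per g2 gn hnc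
      exact ⟨c, l, hp, H'.inv_hom g2 gn hp hkodd⟩
    · exact H.two_fixed hodd tP hU hcU hmax
    · intro x y hxy
      obtain ⟨g, g2, gn, gx, gy⟩ := H.dual.two_fixed hodd tL hU (hk.dual.cfg)
        (fun V hUV hV hcV => hmax V hUV hV (by
          obtain ⟨k', hk'⟩ := H.dual.fu_pl hcV
          exact hk'.dual.cfg)) x y hxy
      exact ⟨g, H'.dual.sq_L g2, H'.dual.nt_L gn, gx, gy⟩
  rw [hj]
  exact hkpp.pow (by positivity)

end PA

end Cfsg.Agent.OW
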