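import Cfsg.Agent.OW.Even
import Cfsg.Agent.Ito.PSLId

/-!
# The theorem of Ostrom and Wagner
-/

set_option autoImplicit false
set_option linter.unusedSectionVars false

namespace Cfsg.Agent.OW

open MulAction Cfsg.Agent.Ito Matrix
open scoped LinearAlgebra.Projectivization

theorem finrank_ker_dot {F : Type} [Field F] {b : Fin 3 → F} (hb : b ≠ 0) :
    ∃ W : Submodule F (Fin 3 → F), Module.finrank F W = 2 ∧ ∀ w, w ∈ W ↔ b ⬝ᵥ w = 0 := by
  classical
  let f : (Fin 3 → F) →ₗ[F] F :=
    { toFun := fun w => b ⬝ᵥ w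
      map_add' := fun x y => dotProduct_add b x y
      map_smul' := fun c x => by simp [dotProduct_smul] }
  refine ⟨LinearMap.ker f, ?_, fun w => LinearMap.mem_ker⟩
  have h1 := f.finrank_range_add_finrank_ker
  have h2 : LinearMap.range f = ⊤ := by
    rw [LinearMap.range_eq_top]
    obtain ⟨i, hi⟩ : ∃ i, b i ≠ 0 := by
      by_contra hcon
      push Not at hcon
      exact hb (funext hcon)
    intro c
    refine ⟨Pi.single i (c / b i), ?_⟩
    change b ⬝ᵥ Pi.single i (c / b i) = c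
    rw [dotProduct_single, mul_div_cancel₀ _ hi]
  rw [h2, finrank_top, Module.finrank_self, Module.finrank_fin_fun] at h1
  omega

/-- Ostrom–Wagner. -/
theorem ostrom_wagner {P L : Type*} [Finite P] [Finite L] {I : P → L → Prop} {n : ℕ}
    (H : Pl I n)
    (h2t : ∀ p₁ p₂ q₁ q₂ : P, p₁ ≠ p₂ → q₁ ≠ q₂ →
      ∃ (σ : Equiv.Perm P) (τ : Equiv.Perm L), (∀ (p : P) (l : L), I (σ p) (τ l) ↔ I p l) ∧
        σ p₁ = q₁ ∧ σ p₂ = q₂) :
    ∃ (F : Type) (_ : Field F) (_ : Fintype F) (φ : P ≃ Projectivization F (Fin 3 → F)),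
      (∀ l : L, ∃ W : Submodule F (Fin 3 → F), Module.finrank F W = 2 ∧
          ∀ p : P, I p l ↔ (φ p).submodule ≤ W) ∧
      (∀ W : Submodule F (Fin 3 → F), Module.finrank F W = 2 →
          ∃ l : L, ∀ p : P, I p l ↔ (φ p).submodule ≤ W) := by
  classical
  haveI := H.col_faithful
  have hn2 := H.n2
  have H' := H.col
  have D : Des (Col I) P L I (n ^ 2 + n + 1) (n + 1) 1 := by
    refine Des.of I _ _ _ (fun g x B => g.2 x B) H.cP H.cL H.kP ?_ ?_ (by omega) (by nlinarith)
    · intro x y hxy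
      rw [Set.ncard_eq_one]
      obtain ⟨l, h1, h2⟩ := H.join x y hxy
      refine ⟨l, ?_⟩
      ext m
      simp only [Set.mem_setOf_eq, Set.mem_singleton_iff]
      constructor
      · rintro ⟨h3, h4⟩
        exact H.uniq h3 h4 h1 h2 hxy
      · rintro rfl
        exact ⟨h1, h2⟩
    · intro x y x' y' hxy hxy'
      obtain ⟨σ, τ, h, h1, h2⟩ := h2t x y x' y' hxy hxy'
      exact ⟨⟨(σ, τ), h⟩, h1, h2⟩
  obtain ⟨g, c, l, g1, hp⟩ := H'.exists_persp D
  obtain ⟨N, Fm, hab⟩ := D.exists_comm_fam (B0 := l) (h0 := g) (fun x hx => hp.1 x hx) g1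
  obtain ⟨q, c, E⟩ := D.exists_ela Fm hab
  haveI : AbFam N := ⟨E.ab⟩
  obtain ⟨F, _, _, m, φ, ψ, hFq, hm, hI⟩ := D.coord E
  have hcn : c = n := by
    have := E.hk
    omega
  have hqn : q = n := by
    have h1 := E.hv
    rw [hcn] at h1
    have h2 : n * n = q * n := by nlinarith
    exact (Nat.eq_of_mul_eq_mul_right (by omega) h2).symm
  have hm2 : m = 2 := by
    have h1 : Nat.card P = ∑ i ∈ Finset.range (m + 1), Nat.card F ^ i := by
      rw [Nat.card_congr φ]
      exact Projectivization.card_of_finrank F (Fin (m + 1) → F) (Module.finrank_fin_fun F)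
    rw [H.cP, Nat.card_eq_fintype_card, hFq, hqn] at h1
    by_contra hne
    have h2 : Finset.range 4 ⊆ Finset.range (m + 1) := by
      intro i
      simp only [Finset.mem_range]
      omega
    have h3 := Finset.sum_le_sum_of_subset (f := fun i => n ^ i) h2
    rw [← h1] at h3
    simp only [Finset.sum_range_succ, Finset.sum_range_zero, pow_zero, pow_one] at h3
    have h4 : 0 < n ^ 3 := by positivity
    omega
  subst hm2
  have hsub : ∀ (x : P) (W : Submodule F (Fin 3 → F)),
      (φ x).submodule ≤ W ↔ (φ x).rep ∈ W := by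
    intro x W
    rw [Projectivization.submodule_eq, Submodule.span_singleton_le_iff_mem]
  refine ⟨F, inferInstance, inferInstance, φ, ?_, ?_⟩
  · intro l
    obtain ⟨W, hW, hW'⟩ := finrank_ker_dot (ψ l).rep_nonzero
    refine ⟨W, hW, fun p => ?_⟩
    rw [hI, hsub, hW']
  · intro W hW
    have hcard : Nat.card W = Fintype.card F ^ 2 := by
      rw [Nat.card_eq_fintype_card, Module.card_eq_pow_finrank (K := F), hW]
    obtain ⟨b, hb, hbW⟩ := Des.exists_normal_vec W hcard (by ring)
    refine ⟨ψ.symm (Projectivization.mk F b hb), fun p => ?_⟩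
    rw [hsub, hbW]
    exact inc_mk' φ ψ hI p b hb

end Cfsg.Agent.OW
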