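import Cfsg.Agent.OW.Local2
import Cfsg.Agent.Ito.Design

/-!
# Existence of a perspectivity
-/

set_option autoImplicit false
set_option linter.unusedSectionVars false

namespace Cfsg.Agent.OW

open MulAction Cfsg.Agent.Ito

variable {G P L : Type*} [Group G] [MulAction G P] [MulAction G L] {I : P → L → Prop} {n : ℕ}

theorem orb {X : Type*} [MulAction G X] (A : Subgroup G) (x : X) :
    Set.ncard {y | ∃ h ∈ A, h • x = y} * Nat.card (A ⊓ stabilizer G x : Subgroup G)
      = Nat.card A := by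
  have h1 : {y | ∃ h ∈ A, h • x = y} = orbit A x := by
    ext y
    constructor
    · rintro ⟨h, hh, rfl⟩
      exact ⟨⟨h, hh⟩, rfl⟩
    · rintro ⟨⟨h, hh⟩, rfl⟩
      exact ⟨h, hh, rfl⟩
  have h2 : Nat.card (A ⊓ stabilizer G x : Subgroup G) = Nat.card (stabilizer A x) := by
    refine Nat.card_congr ⟨fun h => ⟨⟨h.1, h.2.1⟩, h.2.2⟩, fun h => ⟨h.1.1, h.1.2, h.2⟩, ?_, ?_⟩
    · intro h; rfl
    · intro h; rfl
  rw [h1, h2, ← Nat.card_coe_set_eq, ← Nat.card_prod]
  exact Nat.card_congr (orbitProdStabilizerEquivGroup A x)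

theorem card_pair [Finite G]
    (tP : ∀ x y x' y' : P, x ≠ y → x' ≠ y' → ∃ g : G, g • x = x' ∧ g • y = y')
    {x y x' y' : P} (h : x ≠ y) (h' : x' ≠ y') :
    Nat.card (stabilizer G x ⊓ stabilizer G y : Subgroup G)
      = Nat.card (stabilizer G x' ⊓ stabilizer G y' : Subgroup G) := by
  obtain ⟨g, gx, gy⟩ := tP x y x' y' h h'
  have gx' : g⁻¹ • x' = x := by rw [inv_smul_eq_iff, gx]
  have gy' : g⁻¹ • y' = y := by rw [inv_smul_eq_iff, gy]
  refine Nat.card_congr ⟨fun h => ⟨g * h.1 * g⁻¹, ?_, ?_⟩, fun h => ⟨g⁻¹ * h.1 * g, ?_, ?_⟩,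
    ?_, ?_⟩
  · change (g * h.1 * g⁻¹) • x' = x'
    rw [mul_smul, mul_smul, gx', (show h.1 • x = x from h.2.1), gx]
  · change (g * h.1 * g⁻¹) • y' = y'
    rw [mul_smul, mul_smul, gy', (show h.1 • y = y from h.2.2), gy]
  · change (g⁻¹ * h.1 * g) • x = x
    rw [mul_smul, mul_smul, gx, (show h.1 • x' = x' from h.2.1), gx']
  · change (g⁻¹ * h.1 * g) • y = y
    rw [mul_smul, mul_smul, gy, (show h.1 • y' = y' from h.2.2), gy']
  · intro h
    apply Subtype.ext
    change g⁻¹ * (g * h.1 * g⁻¹) * g = h.1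
    group
  · intro h
    apply Subtype.ext
    change g * (g⁻¹ * h.1 * g) * g⁻¹ = h.1
    group

namespace PA

variable [Finite P] [Finite L] [Finite G] (H : PA G I n) {v : ℕ} (D : Des G P L I v (n + 1) 1)
include H D

theorem orb_flag {X : P} {l : L} (hX : I X l) :
    (n + 1) * Nat.card (stabilizer G X ⊓ stabilizer G l : Subgroup G)
      = Nat.card (stabilizer G X) := by
  rw [← orb (stabilizer G X) l]
  congr 1
  rw [← H.kL X]
  congr 1
  ext m
  constructor
  · intro hm
    obtain ⟨g, gX, gm⟩ := D.tF X l X m hX hm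
    exact ⟨g, gX, gm⟩
  · rintro ⟨g, gX, rfl⟩
    have := H.inc_smul (g := g) hX
    rwa [(show g • X = X from gX)] at this

theorem orb_antiflag {X : P} {m : L} (hX : ¬ I X m) :
    n ^ 2 * Nat.card (stabilizer G X ⊓ stabilizer G m : Subgroup G)
      = Nat.card (stabilizer G X) := by
  rw [← orb (stabilizer G X) m]
  congr 1
  have h1 : {y | ∃ h ∈ stabilizer G X, h • m = y} = {l | I X l}ᶜ := by
    ext k
    constructor
    · rintro ⟨g, gX, rfl⟩ h
      have h2 : g • X = X := gX
      apply hX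
      rw [← H.inv g, h2]
      exact h
    · intro hm
      obtain ⟨g, gX, gm⟩ := D.tA X m X k hX hm
      exact ⟨g, gX, gm⟩
  have h2 := Set.ncard_add_ncard_compl {l | I X l}
  rw [H.kL, H.cL] at h2
  rw [h1]
  omega

theorem syl_trans {p a : ℕ} (hp : p.Prime) (hn : n = p ^ a) {S : Subgroup G} (hS : IsPGroup p S)
    {X Y : P} (hXY : X ≠ Y) (hSX : X ∈ FX S P) (hSY : Y ∈ FX S P)
    (hSc : Nat.card S = p ^ (Nat.card (stabilizer G X ⊓ stabilizer G Y : Subgroup
      G)).factorization p) {l m m' : L} (hXl : I X l) (hYl : I Y l) (hYm : I Y m) (hYm' : I Y m')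
    (hm : m ≠ l) (hm' : m' ≠ l) : ∃ s ∈ S, s • m = m' := by
  haveI := Fact.mk hp
  have hn2 := H.n2
  have ha : a ≠ 0 := by
    rintro rfl
    rw [pow_zero] at hn
    omega
  set C : Subgroup G := stabilizer G X ⊓ stabilizer G l with hC
  have hSC : S ≤ C := by
    intro s hs
    exact ⟨hSX s hs, H.fixL hXY hXl hYl (hSX s hs) (hSY s hs)⟩
  obtain ⟨T, hST, hTC, hT, hTc⟩ := sylow_in hSC hS
  have hXm : ¬ I X m := fun h => hm (H.uniq h hYm hXl hYl hXY)
  have hXm' : ¬ I X m' := fun h => hm' (H.uniq h hYm' hXl hYl hXY)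
  have e1 := H.orb_flag D hXl
  have e2 := H.orb_antiflag D hXm
  have e3 := orb T m
  rw [← hC] at e1
  have f1 : (Nat.card (stabilizer G X)).factorization p = (Nat.card C).factorization p := by
    rw [← e1, Nat.factorization_mul (by omega) Nat.card_pos.ne', Finsupp.add_apply,
      Nat.factorization_eq_zero_of_not_dvd (n := n + 1) (p := p), zero_add]
    intro h
    have h1 : p ∣ n := by
      rw [hn]; exact dvd_pow_self p ha
    have h2 := (Nat.dvd_add_right h1).mp h
    exact hp.one_lt.ne' (Nat.dvd_one.mp h2)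
  have f2 : (Nat.card (stabilizer G X)).factorization p
      = 2 * a + (Nat.card (stabilizer G X ⊓ stabilizer G m : Subgroup G)).factorization p := by
    rw [← e2, Nat.factorization_mul (by positivity) Nat.card_pos.ne', Finsupp.add_apply]
    congr 1
    rw [hn, ← pow_mul, Nat.Prime.factorization_pow hp, Finsupp.single_eq_same]
    ring
  have hTm : Nat.card (T ⊓ stabilizer G m : Subgroup G)
      ≤ p ^ (Nat.card (stabilizer G X ⊓ stabilizer G m : Subgroup G)).factorization p := by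
    apply card_le_syl
    · exact inf_le_inf_right _ (hTC.trans inf_le_left)
    · exact hT.to_inf_left
  have hge : n ^ 2 ≤ Set.ncard {y | ∃ h ∈ T, h • m = y} := by
    by_contra hlt
    push Not at hlt
    have h1 : Nat.card T = n ^ 2 *
        p ^ (Nat.card (stabilizer G X ⊓ stabilizer G m : Subgroup G)).factorization p := by
      rw [hTc, ← f1, f2, pow_add, hn, ← pow_mul, mul_comm a 2]
    rw [h1] at e3
    have h2 : Set.ncard {y | ∃ h ∈ T, h • m = y} * Nat.card (T ⊓ stabilizer G m : Subgroup G)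
        ≤ Set.ncard {y | ∃ h ∈ T, h • m = y} *
        p ^ (Nat.card (stabilizer G X ⊓ stabilizer G m : Subgroup G)).factorization p :=
      Nat.mul_le_mul_left _ hTm
    have h3 : Set.ncard {y | ∃ h ∈ T, h • m = y} *
        p ^ (Nat.card (stabilizer G X ⊓ stabilizer G m : Subgroup G)).factorization p
        < n ^ 2 *
        p ^ (Nat.card (stabilizer G X ⊓ stabilizer G m : Subgroup G)).factorization p :=
      Nat.mul_lt_mul_of_pos_right hlt (pow_pos hp.pos _)
    omega
  have hsub : {y | ∃ h ∈ T, h • m = y} ⊆ {l | I X l}ᶜ := by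
    rintro _ ⟨g, gT, rfl⟩ h
    have h2 : g • X = X := (hTC gT).1
    apply hXm
    rw [← H.inv g, h2]
    exact h
  have h2 := Set.ncard_add_ncard_compl {l | I X l}
  rw [H.kL, H.cL] at h2
  have heq := Set.eq_of_subset_of_ncard_le hsub (by omega) (Set.toFinite _)
  have hmem : m' ∈ {y | ∃ h ∈ T, h • m = y} := by
    rw [heq]; exact hXm'
  obtain ⟨t, htT, htm⟩ := hmem
  have hTY : T ⊓ stabilizer G Y ≤ stabilizer G X ⊓ stabilizer G Y :=
    inf_le_inf_right _ (hTC.trans inf_le_left)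
  have hST' : S ≤ T ⊓ stabilizer G Y := le_inf hST (fun s hs => hSY s hs)
  have h3 := card_le_syl (p := p) hTY hT.to_inf_left
  rw [← hSc] at h3
  have h4 : S = T ⊓ stabilizer G Y := Subgroup.eq_of_le_of_card_ge hST' h3
  refine ⟨t, ?_, htm⟩
  rw [h4]
  refine ⟨htT, ?_⟩
  have h5 : I (t • Y) m' := by
    rw [← htm]; exact H.inc_smul hYm
  have h6 : I (t • Y) l := by
    have := H.inc_smul (g := t) hYl
    rwa [(show t • l = l from (hTC htT).2)] at this
  exact H.uniq' h5 h6 hYm' hYl hm'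

theorem persp_of_primePow (hpp : IsPrimePow n) :
    ∃ (g : G) (c : P) (l : L), g ≠ 1 ∧ Per I g c l := by
  obtain ⟨p, a, hp, ha, hn⟩ := (isPrimePow_nat_iff n).mp hpp
  haveI := Fact.mk hp
  have hn2 := H.n2
  obtain ⟨X⟩ := H.nonempty_P
  obtain ⟨l, hX, -⟩ := H.line3 X (H.nonempty_L.some) (H.nonempty_L.some)
  obtain ⟨Y, hY, hYX, -⟩ := H.point3 l X X
  obtain ⟨S, -, hSA, hS, hSc⟩ := sylow_in (p := p)
    (bot_le : (⊥ : Subgroup G) ≤ stabilizer G X ⊓ stabilizer G Y) IsPGroup.of_bot
  have hSX : X ∈ FX S P := fun s hs => (hSA hs).1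
  have hSY : Y ∈ FX S P := fun s hs => (hSA hs).2
  -- transitivity on the lines through fixed points
  have trans : ∀ W, I W l → W ∈ FX S P → ∀ m m', I W m → I W m' → m ≠ l → m' ≠ l →
      ∃ s ∈ S, s • m = m' := by
    intro W hW hSW m m' hm hm' hml hml'
    obtain ⟨X', hX', hSX', hne⟩ : ∃ X', I X' l ∧ X' ∈ FX S P ∧ X' ≠ W := by
      by_cases h : X = W
      · exact ⟨Y, hY, hSY, fun h' => hYX (h'.trans h.symm)⟩
      · exact ⟨X, hX, hSX, h⟩
    refine H.syl_trans D hp hn.symm hS hne hSX' hSW ?_ hX' hW hm hm' hml hml'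
    rw [hSc, card_pair D.tP hYX.symm hne]
  -- the group is not trivial
  have hSne : Nontrivial S := by
    by_contra hcon
    rw [not_nontrivial_iff_subsingleton] at hcon
    obtain ⟨m, hm, hml, -⟩ := H.line3 Y l l
    obtain ⟨m', hm', hml', hmm⟩ := H.line3 Y l m
    obtain ⟨s, hs, hsm⟩ := trans Y hY hSY m m' hm hm' hml hml'
    have : (⟨s, hs⟩ : S) = 1 := Subsingleton.elim _ _
    have h1 : s = 1 := congrArg Subtype.val this
    rw [h1, one_smul] at hsm
    exact hmm hsm.symm
  obtain ⟨z, hz1⟩ := (Subgroup.nontrivial_iff_exists_ne_one _).mp hS.center_nontrivial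
  obtain ⟨hzc, hz1⟩ := hz1
  have hz1' : (z : G) ≠ 1 := fun h => hz1 (Subtype.ext h)
  have hcomm : ∀ s ∈ S, s * (z : G) = (z : G) * s := by
    intro s hs
    have := Subgroup.mem_center_iff.mp hzc ⟨s, hs⟩
    exact congrArg Subtype.val this
  have zl : (z : G) • l = l := H.fixL hYX.symm hX hY (hSX _ z.2) (hSY _ z.2)
  -- the key: a fixed line through a fixed point of `S`
  have key : ∀ W, I W l → W ∈ FX S P → ∀ m, I W m → m ≠ l → (z : G) • m = m →
      ∃ (g : G) (c : P) (l : L), g ≠ 1 ∧ Per I g c l := by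
    intro W hW hSW m hm hml zm
    have h1 : ∀ m', I W m' → (z : G) • m' = m' := by
      intro m' hm'
      by_cases hml' : m' = l
      · rw [hml', zl]
      obtain ⟨s, hs, rfl⟩ := trans W hW hSW m m' hm hm' hml hml'
      rw [← mul_smul, ← hcomm s hs, mul_smul, zm]
    obtain ⟨l', hl'⟩ := H.exists_axis h1
    exact ⟨z, W, l', hz1', hl'⟩
  by_cases hfix : ∃ V, ¬ I V l ∧ (z : G) • V = V
  · obtain ⟨V, hVl, zV⟩ := hfix
    have hYV : Y ≠ V := fun h => hVl (h ▸ hY)
    obtain ⟨m, hYm, hVm⟩ := H.join Y V hYV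
    exact key Y hY hSY m hYm (fun h => hVl (h ▸ hVm)) (H.fixL hYV hYm hVm (hSY _ z.2) zV)
  · push Not at hfix
    -- a fixed line different from `l`
    obtain ⟨m, hml, zm⟩ : ∃ m : L, m ≠ l ∧ (z : G) • m = m := by
      have h1 := D.fix (z : G)
      have h2 : 1 < Set.ncard (fixedBy P (z : G)) :=
        (Set.one_lt_ncard (Set.toFinite _)).mpr ⟨X, hSX _ z.2, Y, hSY _ z.2, hYX.symm⟩
      rw [h1] at h2
      obtain ⟨m1, h3, m2, h4, h5⟩ := (Set.one_lt_ncard (Set.toFinite _)).mp h2
      by_cases h6 : m1 = l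
      · exact ⟨m2, fun h => h5 (h6.trans h.symm), h4⟩
      · exact ⟨m1, h6, h3⟩
    obtain ⟨W, hWm, hWl⟩ := H.meet m l hml
    have hSW : W ∈ FX S P := by
      intro s hs
      by_contra hsW
      have sl : s • l = l := H.fixL hYX.symm hX hY (hSX s hs) (hSY s hs)
      have hsWl : I (s • W) l := by
        have := H.inc_smul (g := s) hWl
        rwa [sl] at this
      have hsWm : I (s • W) (s • m) := H.inc_smul hWm
      have hsm : s • m ≠ m := by
        intro h
        rw [h] at hsWm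
        exact hsW (H.uniq' hsWm hsWl hWm hWl hml)
      have hsml : s • m ≠ l := by
        intro h
        apply hml
        have : s • m = s • l := by rw [h, sl]
        exact MulAction.injective s this
      have zsm : (z : G) • s • m = s • m := by
        rw [← mul_smul, ← hcomm s hs, mul_smul, zm]
      obtain ⟨V, hV1, hV2⟩ := H.meet (s • m) m hsm
      have zV := H.fixP hsm hV1 hV2 zsm zm
      have hVl : I V l := by
        by_contra hVl
        exact hfix V hVl zV
      have e1 : V = W := H.uniq' hV2 hVl hWm hWl hml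
      have e2 : V = s • W := H.uniq' hV1 hVl hsWm hsWl hsml
      exact hsW (e2.symm.trans e1)
    exact key W hWl hSW m hWm hml zm

end PA

end Cfsg.Agent.OW
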