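import Cfsg.Agent.OW.Plane

/-!
# Perspectivities and involutions of finite projective planes
-/

set_option autoImplicit false
set_option linter.unusedSectionVars false

namespace Cfsg.Agent.OW

open MulAction

/-- A group acting on a plane. -/
structure PA (G : Type*) {P L : Type*} [Group G] [MulAction G P] [MulAction G L]
    (I : P → L → Prop) (n : ℕ) : Prop extends Pl I n where
  inv : ∀ (g : G) x l, I (g • x) (g • l) ↔ I x l

/-- Perspectivity with center `c` and axis `l`. -/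
def Per {G P L : Type*} [Group G] [MulAction G P] [MulAction G L] (I : P → L → Prop) (g : G)
    (c : P) (l : L) : Prop :=
  (∀ x, I x l → g • x = x) ∧ (∀ m, I c m → g • m = m)

/-- The structure of fixed elements. -/
def FI {G P L : Type*} [Group G] [MulAction G P] [MulAction G L] (I : P → L → Prop) (g : G) :
    {x : P // g • x = x} → {l : L // g • l = l} → Prop := fun x l => I x.1 l.1

variable {G P L : Type*} [Group G] [MulAction G P] [MulAction G L] {I : P → L → Prop} {n : ℕ}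

theorem Per.dual {g : G} {c : P} {l : L} (h : Per I g c l) : Per (fun l x => I x l) g l c :=
  ⟨h.2, h.1⟩

theorem Per.inv {g : G} {c : P} {l : L} (h : Per I g c l) : Per I g⁻¹ c l :=
  ⟨fun x hx => by rw [inv_smul_eq_iff, h.1 x hx], fun m hm => by rw [inv_smul_eq_iff, h.2 m hm]⟩

theorem Per.mul {g g' : G} {c : P} {l : L} (h : Per I g c l) (h' : Per I g' c l) :
    Per I (g * g') c l :=
  ⟨fun x hx => by rw [mul_smul, h'.1 x hx, h.1 x hx],
    fun m hm => by rw [mul_smul, h'.2 m hm, h.2 m hm]⟩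

theorem Per.one {c : P} {l : L} : Per I (1 : G) c l :=
  ⟨fun x _ => one_smul G x, fun m _ => one_smul G m⟩

theorem Per.pow {g : G} {c : P} {l : L} (h : Per I g c l) (j : ℕ) : Per I (g ^ j) c l := by
  induction j with
  | zero => rw [pow_zero]; exact Per.one
  | succ j ih => rw [pow_succ]; exact ih.mul h

namespace PA

theorem dual (H : PA G I n) : PA G (fun l x => I x l) n :=
  { H.toPl.dual with inv := fun g l x => H.inv g x l }

variable [Finite P] [Finite L] (H : PA G I n)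
include H

theorem inc_smul {g : G} {x : P} {l : L} (h : I x l) : I (g • x) (g • l) := (H.inv g x l).mpr h

theorem inc_inv {g : G} {x : P} {l : L} (h : I x (g • l)) : I (g⁻¹ • x) l := by
  rw [← H.inv g, smul_inv_smul]
  exact h

theorem per_conj {g h : G} {c : P} {l : L} (hp : Per I g c l) :
    Per I (h * g * h⁻¹) (h • c) (h • l) := by
  constructor
  · intro x hx
    rw [mul_smul, mul_smul, hp.1 _ (H.inc_inv hx), smul_inv_smul]
  · intro m hm
    have h1 : I c (h⁻¹ • m) := by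
      rw [← H.inv h, smul_inv_smul]; exact hm
    rw [mul_smul, mul_smul, hp.2 _ h1, smul_inv_smul]

theorem fixL {g : G} {x y : P} {l : L} (hxy : x ≠ y) (hx : I x l) (hy : I y l) (gx : g • x = x)
    (gy : g • y = y) : g • l = l := by
  have h1 := H.inc_smul (g := g) hx
  have h2 := H.inc_smul (g := g) hy
  rw [gx] at h1
  rw [gy] at h2
  exact H.uniq h1 h2 hx hy hxy

theorem fixP {g : G} {l m : L} {x : P} (hlm : l ≠ m) (hl : I x l) (hm : I x m) (gl : g • l = l)
    (gm : g • m = m) : g • x = x := H.dual.fixL hlm hl hm gl gm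

theorem triv_L {g : G} (h : ∀ x : P, g • x = x) (l : L) : g • l = l := by
  obtain ⟨x, hx, -⟩ := H.point3 l (H.nonempty_P.some) (H.nonempty_P.some)
  obtain ⟨y, hy, hyx, -⟩ := H.point3 l x x
  exact H.fixL hyx hy hx (h y) (h x)

theorem triv_P {g : G} (h : ∀ l : L, g • l = l) (x : P) : g • x = x := H.dual.triv_L h x

theorem nt_L {g : G} (h : ∃ x : P, g • x ≠ x) : ∃ l : L, g • l ≠ l := by
  by_contra hc
  push Not at hc
  obtain ⟨x, hx⟩ := h
  exact hx (H.triv_P hc x)

theorem axis_smul {g : G} {l : L} (h : ∀ x, I x l → g • x = x) : g • l = l := by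
  obtain ⟨x, hx, -⟩ := H.point3 l (H.nonempty_P.some) (H.nonempty_P.some)
  obtain ⟨y, hy, hyx, -⟩ := H.point3 l x x
  exact H.fixL hyx hy hx (h y hy) (h x hx)

theorem per_smul_l {g : G} {c : P} {l : L} (h : Per I g c l) : g • l = l := H.axis_smul h.1

theorem per_smul_c {g : G} {c : P} {l : L} (h : Per I g c l) : g • c = c :=
  H.dual.per_smul_l h.dual

theorem exists_center {g : G} {l : L} (h : ∀ x, I x l → g • x = x) : ∃ c, Per I g c l := by
  have gl := H.axis_smul h
  by_cases hc : ∃ c, ¬ I c l ∧ g • c = c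
  · obtain ⟨c, hcl, gc⟩ := hc
    refine ⟨c, h, fun m hm => ?_⟩
    have hml : m ≠ l := fun e => hcl (e ▸ hm)
    obtain ⟨x, hxm, hxl⟩ := H.meet m l hml
    exact H.fixL (fun e : x = c => hcl (e ▸ hxl)) hxm hm (h x hxl) gc
  · push Not at hc
    -- through every point there is a fixed line
    have key : ∀ x, ¬ I x l → ∃ m, I x m ∧ g • m = m ∧ m ≠ l := by
      intro x hx
      obtain ⟨m, h1, h2⟩ := H.join x (g • x) (Ne.symm (hc x hx))
      have hml : m ≠ l := fun e => hx (e ▸ h1)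
      obtain ⟨z, hzm, hzl⟩ := H.meet m l hml
      refine ⟨m, h1, ?_, hml⟩
      have h3 := H.inc_smul (g := g) hzm
      rw [h z hzl] at h3
      have h4 := H.inc_smul (g := g) h1
      refine H.uniq h4 h3 h2 hzm ?_
      intro e
      have h5 : g • z = z := h z hzl
      have h6 : x = z := MulAction.injective g (show g • x = g • z by rw [e, h5])
      exact hx (h6 ▸ hzl)
    obtain ⟨x0, hx0, -⟩ := H.off2 l l
    obtain ⟨m0, hx0m, gm0, hm0l⟩ := key x0 hx0
    obtain ⟨z0, hz0m, hz0l⟩ := H.meet m0 l hm0l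
    have key2 : ∀ m, g • m = m → m ≠ l → I z0 m := by
      intro m gm hml
      by_cases hmm : m = m0
      · rw [hmm]; exact hz0m
      obtain ⟨z, hzm, hzm0⟩ := H.meet m m0 hmm
      have gz := H.fixP hmm hzm hzm0 gm gm0
      have hzl : I z l := by
        by_contra hzl
        exact hc z hzl gz
      rwa [H.uniq' hz0m hz0l hzm0 hzl hm0l]
    refine ⟨z0, h, fun m hm => ?_⟩
    by_cases hml : m = l
    · rw [hml]; exact gl
    obtain ⟨x, hxm, hxz, -⟩ := H.point3 m z0 z0
    have hxl : ¬ I x l := fun e => hml (H.uniq hxm hm e hz0l hxz)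
    obtain ⟨m', hxm', gm', hm'⟩ := key x hxl
    have := key2 m' gm' hm'
    rwa [H.uniq hxm hm hxm' this hxz]

theorem exists_axis {g : G} {c : P} (h : ∀ m, I c m → g • m = m) : ∃ l, Per I g c l := by
  obtain ⟨l, hl⟩ := H.dual.exists_center h
  exact ⟨l, hl.dual⟩

theorem per_step {g : G} {c : P} {l : L} (h : Per I g c l) {x : P} (gx : g • x = x)
    (hx : ¬ I x l) (hxc : x ≠ c) {m : L} (hcm : I c m) (hxm : I x m) {y : P} (hy : ¬ I y m) :
    g • y = y := by
  by_cases hyl : I y l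
  · exact h.1 y hyl
  have hxy : x ≠ y := fun e => hy (e ▸ hxm)
  have hyc : y ≠ c := fun e => hy (e ▸ hcm)
  obtain ⟨e, hxe, hye⟩ := H.join x y hxy
  obtain ⟨k, hyk, hck⟩ := H.join y c hyc
  have hel : e ≠ l := fun e' => hx (e' ▸ hxe)
  obtain ⟨z, hze, hzl⟩ := H.meet e l hel
  have ge : g • e = e := H.fixL (fun e' : z = x => hx (e' ▸ hzl)) hze hxe (h.1 z hzl) gx
  refine H.fixP (l := e) (m := k) ?_ hye hyk ge (h.2 k hck)
  intro e'
  subst e'
  exact hy (H.uniq hxe hck hxm hcm hxc ▸ hyk)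

theorem per_triv {g : G} {c : P} {l : L} (h : Per I g c l) {x : P} (gx : g • x = x)
    (hx : ¬ I x l) (hxc : x ≠ c) (y : P) : g • y = y := by
  obtain ⟨m, hxm, hcm⟩ := H.join x c hxc
  by_cases hy : I y m
  · obtain ⟨w, hwm, hwl⟩ := H.off2 m l
    have gw := H.per_step h gx hx hxc hcm hxm hwm
    have hwc : w ≠ c := fun e => hwm (e ▸ hcm)
    obtain ⟨k, hwk, hck⟩ := H.join w c hwc
    by_cases hyc : y = c
    · rw [hyc]; exact H.per_smul_c h
    · refine H.per_step h gw hwl hwc hck hwk ?_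
      intro hyk
      exact hwm (H.uniq hyk hck hy hcm hyc ▸ hwk)
  · exact H.per_step h gx hx hxc hcm hxm hy

theorem per_fixP {g : G} {c : P} {l : L} (h : Per I g c l) (hn : ∃ x : P, g • x ≠ x) {x : P}
    (gx : g • x = x) : I x l ∨ x = c := by
  by_contra hcon
  push Not at hcon
  obtain ⟨y, hy⟩ := hn
  exact hy (H.per_triv h gx hcon.1 hcon.2 y)

theorem per_fixL {g : G} {c : P} {l : L} (h : Per I g c l) (hn : ∃ x : P, g • x ≠ x) {m : L}
    (gm : g • m = m) : I c m ∨ m = l := H.dual.per_fixP h.dual (H.nt_L hn) gm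

theorem center_unique {g : G} {c c' : P} {l l' : L} (h : Per I g c l) (h' : Per I g c' l')
    (hn : ∃ x : P, g • x ≠ x) : c' = c := by
  by_contra hne
  obtain ⟨e, h1, h2⟩ := H.join c' c hne
  obtain ⟨m, hm, hml, hme⟩ := H.line3 c' l e
  rcases H.per_fixL h hn (h'.2 m hm) with h3 | h3
  · exact hme (H.uniq hm h3 h1 h2 hne)
  · exact hml h3

theorem axis_unique {g : G} {c c' : P} {l l' : L} (h : Per I g c l) (h' : Per I g c' l')
    (hn : ∃ x : P, g • x ≠ x) : l' = l := H.dual.center_unique h.dual h'.dual (H.nt_L hn)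

/-! ### Involutions -/

theorem sq_L {g : G} (h2 : ∀ x : P, g • g • x = x) (l : L) : g • g • l = l := by
  rw [← mul_smul]
  exact H.triv_L (fun x => by rw [mul_smul]; exact h2 x) l

theorem inv_line {g : G} (h2 : ∀ x : P, g • g • x = x) (hn : ∃ x : P, g • x ≠ x) (x : P) :
    ∃ l, I x l ∧ g • l = l := by
  by_cases gx : g • x = x
  · obtain ⟨y, gy⟩ := hn
    obtain ⟨l0, h1, h1'⟩ := H.join (g • y) y gy
    have gl0 : g • l0 = l0 := by
      have h3 := H.inc_smul (g := g) h1
      rw [h2] at h3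
      exact H.uniq (H.inc_smul (g := g) h1') h3 h1 h1' gy
    have hyx : y ≠ x := fun e => gy (by rw [e, gx])
    obtain ⟨k, hyk, hxk⟩ := H.join y x hyx
    obtain ⟨m, hym, hm0, hmk⟩ := H.line3 y l0 k
    have hxm : ¬ I x m := fun e => hmk (H.uniq hym e hyk hxk hyx)
    have gm : g • m ≠ m := fun e => gy (H.fixP hm0 hym h1' e gl0)
    obtain ⟨z, hz1, hz2⟩ := H.meet (g • m) m gm
    have gz : g • z = z := by
      have h3 := H.inc_smul (g := g) hz1
      rw [H.sq_L h2] at h3
      exact H.uniq' (H.inc_smul (g := g) hz2) h3 hz1 hz2 gm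
    have hzx : z ≠ x := fun e => hxm (e ▸ hz2)
    obtain ⟨l, hzl, hxl⟩ := H.join z x hzx
    exact ⟨l, hxl, H.fixL hzx hzl hxl gz gx⟩
  · obtain ⟨l0, h1, h1'⟩ := H.join (g • x) x gx
    have h3 := H.inc_smul (g := g) h1
    rw [h2] at h3
    exact ⟨l0, h1', H.uniq (H.inc_smul (g := g) h1') h3 h1 h1' gx⟩

theorem inv_point {g : G} (h2 : ∀ x : P, g • g • x = x) (hn : ∃ x : P, g • x ≠ x) (l : L) :
    ∃ x, I x l ∧ g • x = x := H.dual.inv_line (H.sq_L h2) (H.nt_L hn) l

theorem inv_two {g : G} (h2 : ∀ x : P, g • g • x = x) (hn : ∃ x : P, g • x ≠ x) :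
    ∃ x y : P, x ≠ y ∧ g • x = x ∧ g • y = y := by
  obtain ⟨l⟩ := H.nonempty_L
  obtain ⟨x, -, gx⟩ := H.inv_point h2 hn l
  obtain ⟨m, hm, -⟩ := H.off2' x x
  obtain ⟨y, hy, gy⟩ := H.inv_point h2 hn m
  exact ⟨x, y, fun e => hm (e ▸ hy), gx, gy⟩

theorem cfg_of {g : G} {A B C Z : P} {a e : L} (hAB : A ≠ B) (hCZ : C ≠ Z) (hA : I A a)
    (hB : I B a) (hC : ¬ I C a) (hZ : ¬ I Z a) (hCe : I C e) (hZe : I Z e) (hAe : ¬ I A e)
    (hBe : ¬ I B e) (gA : g • A = A) (gB : g • B = B) (gC : g • C = C) (gZ : g • Z = Z) :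
    Cfg (FI I g) := by
  have hAC : A ≠ C := fun h => hC (h ▸ hA)
  obtain ⟨l3, h1, h2⟩ := H.join A C hAC
  refine ⟨⟨Z, gZ⟩, ⟨A, gA⟩, ⟨B, gB⟩, ⟨e, H.fixL hCZ hCe hZe gC gZ⟩,
    ⟨a, H.fixL hAB hA hB gA gB⟩, ⟨l3, H.fixL hAC h1 h2 gA gC⟩, hZ, ?_, hAe, hA, h1, hBe, hB, ?_⟩
  · intro h
    exact hAe (H.uniq h2 h hCe hZe hCZ ▸ h1)
  · intro h
    exact hC (H.uniq h1 h hA hB hAB ▸ h2)

theorem inv_axis {g : G} (h2 : ∀ x : P, g • g • x = x) (hn : ∃ x : P, g • x ≠ x)
    (hc : ¬ Cfg (FI I g)) {a : L} {A B C Z : P} (hAB : A ≠ B) (hAC : A ≠ C) (hBC : B ≠ C)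
    (hA : I A a) (hB : I B a) (hC : I C a) (hZ : ¬ I Z a) (gA : g • A = A) (gB : g • B = B)
    (gC : g • C = C) (gZ : g • Z = Z) (x : P) (hx : I x a) : g • x = x := by
  by_contra gx
  have hxZ : x ≠ Z := fun e => hZ (e ▸ hx)
  obtain ⟨k, hxk, hZk⟩ := H.join x Z hxZ
  obtain ⟨m, hxm, hma, hmk⟩ := H.line3 x a k
  obtain ⟨w, hwm, gw⟩ := H.inv_point h2 hn m
  have hwa : ¬ I w a := by
    intro hwa
    exact gx (by rw [H.uniq' hxm hx hwm hwa hma]; exact gw)
  have hZw : Z ≠ w := by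
    rintro rfl
    exact hmk (H.uniq hxm hwm hxk hZk hxZ)
  obtain ⟨e, hZe, hwe⟩ := H.join Z w hZw
  have two : ∀ U V : P, U ≠ V → I U a → I V a → I U e → ¬ I V e := by
    intro U V hUV hU hV hUe hVe
    exact hZ (H.uniq hUe hVe hU hV hUV ▸ hZe)
  by_cases hAe : I A e
  · exact hc (H.cfg_of hBC hZw hB hC hZ hwa hZe hwe (two A B hAB hA hB hAe)
      (two A C hAC hA hC hAe) gB gC gZ gw)
  · by_cases hBe : I B e
    · exact hc (H.cfg_of hAC hZw hA hC hZ hwa hZe hwe hAe
        (two B C hBC hB hC hBe) gA gC gZ gw)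
    · exact hc (H.cfg_of hAB hZw hA hB hZ hwa hZe hwe hAe hBe gA gB gZ gw)

/-- An involution whose fixed structure is degenerate is a perspectivity. -/
theorem inv_per {g : G} (h2 : ∀ x : P, g • g • x = x) (hn : ∃ x : P, g • x ≠ x)
    (hc : ¬ Cfg (FI I g)) : ∃ c l, Per I g c l := by
  obtain ⟨A, B, hAB, gA, gB⟩ := H.inv_two h2 hn
  obtain ⟨c, hAc, hBc⟩ := H.join A B hAB
  suffices h : ∃ l, ∀ x, I x l → g • x = x by
    obtain ⟨l, hl⟩ := h
    obtain ⟨c, hc⟩ := H.exists_center hl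
    exact ⟨c, l, hc⟩
  by_cases hall : ∀ x, g • x = x → I x c
  · refine ⟨c, fun x hx => ?_⟩
    obtain ⟨m, hxm, hmc, -⟩ := H.line3 x c c
    obtain ⟨w, hwm, gw⟩ := H.inv_point h2 hn m
    rw [H.uniq' hxm hx hwm (hall w gw) hmc]
    exact gw
  · push Not at hall
    obtain ⟨C, gC, hCc⟩ := hall
    have hAC : A ≠ C := fun e => hCc (e ▸ hAc)
    have hBC : B ≠ C := fun e => hCc (e ▸ hBc)
    obtain ⟨a, hBa, hCa⟩ := H.join B C hBC
    obtain ⟨b, hAb, hCb⟩ := H.join A C hAC
    obtain ⟨l, hAl, hBl, hCl⟩ := H.off3' A B C hAB c hAc hBc hCc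
    obtain ⟨S, hSl, gS⟩ := H.inv_point h2 hn l
    have hSA : S ≠ A := fun e => hAl (e ▸ hSl)
    have hSB : S ≠ B := fun e => hBl (e ▸ hSl)
    have hSC : S ≠ C := fun e => hCl (e ▸ hSl)
    have hAa : ¬ I A a := fun h => hCc (H.uniq h hBa hAc hBc hAB ▸ hCa)
    have hBb : ¬ I B b := fun h => hCc (H.uniq hAb h hAc hBc hAB ▸ hCb)
    by_cases hSa : I S a
    · exact ⟨a, H.inv_axis h2 hn hc hBC hSB.symm hSC.symm hBa hCa hSa hAa gB gC gS gA⟩
    by_cases hSb : I S b
    · exact ⟨b, H.inv_axis h2 hn hc hAC hSA.symm hSC.symm hAb hCb hSb hBb gA gC gS gB⟩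
    by_cases hSc : I S c
    · exact ⟨c, H.inv_axis h2 hn hc hAB hSA.symm hSB.symm hAc hBc hSc hCc gA gB gS gC⟩
    exfalso
    obtain ⟨e, hAe, hSe⟩ := H.join A S hSA.symm
    exact hc (H.cfg_of hBC hSA.symm hBa hCa hAa hSa hAe hSe
      (fun h => hSc (H.uniq hAe h hAc hBc hAB ▸ hSe))
      (fun h => hSb (H.uniq hAe h hAb hCb hAC ▸ hSe)) gB gC gA gS)

theorem fi_pl {g : G} (hc : Cfg (FI I g)) : ∃ m, Pl (FI I g) m := by
  refine Pl.of_cfg ?_ ?_ ?_ hc
  · rintro ⟨x, gx⟩ ⟨y, gy⟩ hxy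
    have hxy' : x ≠ y := fun e => hxy (Subtype.ext e)
    obtain ⟨l, h1, h2⟩ := H.join x y hxy'
    exact ⟨⟨l, H.fixL hxy' h1 h2 gx gy⟩, h1, h2⟩
  · rintro ⟨x, gx⟩ ⟨y, gy⟩ hxy
    have hxy' : x ≠ y := fun e => hxy (Subtype.ext e)
    obtain ⟨l, h1, h2⟩ := H.meet x y hxy'
    exact ⟨⟨l, H.fixP hxy' h1 h2 gx gy⟩, h1, h2⟩
  · rintro ⟨x, gx⟩ ⟨y, gy⟩ ⟨l, gl⟩ ⟨m, gm⟩ h1 h2 h3 h4 hxy
    exact Subtype.ext (H.uniq h1 h2 h3 h4 (fun e => hxy (Subtype.ext e)))

/-- Baer: the order of the plane is a square. -/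
theorem inv_baer {g : G} (h2 : ∀ x : P, g • g • x = x) (hn : ∃ x : P, g • x ≠ x) {m : ℕ}
    (hF : Pl (FI I g) m) : n = m ^ 2 := by
  classical
  haveI := Fintype.ofFinite P
  haveI := Fintype.ofFinite L
  have cP : Fintype.card P = n ^ 2 + n + 1 := by rw [← Nat.card_eq_fintype_card, H.cP]
  have fP : (Finset.univ.filter (fun x : P => g • x = x)).card = m ^ 2 + m + 1 := by
    rw [← hF.cP, Nat.card_eq_fintype_card, Fintype.card_subtype]
  have fL : (Finset.univ.filter (fun x : L => g • x = x)).card = m ^ 2 + m + 1 := by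
    rw [← hF.cL, Nat.card_eq_fintype_card, Fintype.card_subtype]
  have fN : (Finset.univ.filter (fun x : P => g • x ≠ x)).card
      = n ^ 2 + n + 1 - (m ^ 2 + m + 1) := by
    have := Finset.card_filter_add_card_filter_not (s := (Finset.univ : Finset P))
      (fun x : P => g • x = x)
    rw [Finset.card_univ, cP, fP] at this
    simp only [ne_eq]
    omega
  have onl : ∀ l : L, g • l = l →
      (Finset.univ.filter (fun x : P => I x l ∧ g • x = x)).card = m + 1 := by
    intro l gl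
    rw [← hF.kP ⟨l, gl⟩]
    rw [← Set.ncard_image_of_injective _ (Subtype.val_injective)]
    rw [Set.ncard_eq_toFinset_card']
    congr 1
    ext x
    simp only [Finset.mem_filter, Finset.mem_univ, true_and, Set.mem_toFinset, Set.mem_image,
      Set.mem_setOf_eq, Subtype.exists, exists_and_left, exists_prop, exists_eq_right_right]
    constructor
    · rintro ⟨h1, h3⟩
      exact ⟨x, h3, h1, rfl⟩
    · rintro ⟨y, h1, h3, rfl⟩
      exact ⟨h3, h1⟩
  have onl' : ∀ l : L, g • l = l →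
      (Finset.univ.filter (fun x : P => I x l ∧ g • x ≠ x)).card = n - m := by
    intro l gl
    have h1 := Finset.card_filter_add_card_filter_not
      (s := (Finset.univ.filter (fun x : P => I x l))) (fun x : P => g • x = x)
    have h3 : (Finset.univ.filter (fun x : P => I x l)).card = n + 1 := by
      rw [← H.kP l, Set.ncard_eq_toFinset_card']
      congr 1
      ext x
      simp
    rw [Finset.filter_filter, Finset.filter_filter, onl l gl, h3] at h1
    simp only [ne_eq]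
    omega
  have hmn : m ≤ n := by
    obtain ⟨l⟩ := hF.nonempty_L
    have h1 := onl l.1 l.2
    have h3 : (Finset.univ.filter (fun x : P => I x l)).card = n + 1 := by
      rw [← H.kP l, Set.ncard_eq_toFinset_card']
      congr 1
      ext x
      simp
    have h4 : (Finset.univ.filter (fun x : P => I x l ∧ g • x = x)).card ≤
        (Finset.univ.filter (fun x : P => I x l)).card := by
      apply Finset.card_le_card
      intro x
      simp only [Finset.mem_filter, Finset.mem_univ, true_and]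
      exact fun h => h.1
    omega
  have hmn' : m ≠ n := by
    rintro rfl
    obtain ⟨x, gx⟩ := hn
    have h1 : x ∈ (Finset.univ.filter (fun x : P => g • x ≠ x)) := by simp [gx]
    rw [Nat.sub_self, Finset.card_eq_zero] at fN
    rw [fN] at h1
    simp at h1
  have key := Finset.card_mul_eq_card_mul (fun (x : P) (l : L) => I x l)
    (s := Finset.univ.filter (fun x : P => g • x ≠ x))
    (t := Finset.univ.filter (fun l : L => g • l = l)) (m := 1) (n := n - m) ?_ ?_
  · rw [fN, fL, mul_one] at key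
    obtain ⟨d, rfl⟩ : ∃ d, n = m + d := ⟨n - m, by omega⟩
    have hd : 0 < d := by omega
    have e1 : (m + d) ^ 2 + (m + d) + 1 - (m ^ 2 + m + 1) = d * (2 * m + d + 1) := by
      have : (m + d) ^ 2 + (m + d) + 1 = (m ^ 2 + m + 1) + d * (2 * m + d + 1) := by ring
      omega
    rw [e1, Nat.add_sub_cancel_left, mul_comm] at key
    have := Nat.eq_of_mul_eq_mul_right hd key
    nlinarith
  · intro x hx
    simp only [Finset.mem_filter, Finset.mem_univ, true_and] at hx
    rw [Finset.card_eq_one]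
    obtain ⟨l, hxl, gl⟩ := H.inv_line h2 hn x
    refine ⟨l, ?_⟩
    ext l'
    simp only [Finset.bipartiteAbove, Finset.mem_filter, Finset.mem_univ, true_and,
      Finset.mem_singleton]
    constructor
    · rintro ⟨gl', hxl'⟩
      by_contra hne
      exact hx (H.fixP hne hxl' hxl gl' gl)
    · rintro rfl
      exact ⟨gl, hxl⟩
  · intro l hl
    simp only [Finset.mem_filter, Finset.mem_univ, true_and] at hl
    rw [← onl' l hl]
    congr 1
    ext x
    simp only [Finset.bipartiteBelow, Finset.mem_filter, Finset.mem_univ, true_and]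
    exact and_comm

/-- An involution of a plane of odd order is not an elation. -/
theorem inv_hom {g : G} (h2 : ∀ x : P, g • g • x = x) (hn : ∃ x : P, g • x ≠ x) {c : P} {l : L}
    (hp : Per I g c l) (hodd : Odd n) : ¬ I c l := by
  classical
  intro hcl
  haveI := Fintype.ofFinite P
  have h1 := Equiv.Perm.card_fixedPoints_modEq (α := P) (f := fun x => g • x) (p := 2) (n := 1)
    (by
      rw [pow_one]
      funext x
      exact h2 x)
  have h3 : Fintype.card (Function.fixedPoints (fun x : P => g • x)) = n + 1 := by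
    rw [← H.kP l, Set.ncard_eq_toFinset_card', Set.toFinset_card]
    refine Fintype.card_congr (Equiv.setCongr ?_)
    ext x
    simp only [Function.mem_fixedPoints, Function.IsFixedPt, Set.mem_setOf_eq]
    constructor
    · intro gx
      rcases H.per_fixP hp hn gx with h | h
      · exact h
      · rw [h]; exact hcl
    · exact hp.1 x
  rw [h3, ← Nat.card_eq_fintype_card, H.cP] at h1
  obtain ⟨j, rfl⟩ := hodd
  have h4 : ((2 * j + 1) ^ 2 + (2 * j + 1) + 1) % 2 = (2 * j + 1 + 1) % 2 := h1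
  have h5 : (2 * j + 1) ^ 2 + (2 * j + 1) + 1 = 2 * (2 * j ^ 2 + 2 * j + j + 1) + 1 := by ring
  rw [h5] at h4
  omega

end PA

end Cfsg.Agent.OW
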