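import Mathlib

/-!
# Finite projective planes given by an incidence relation
-/

set_option autoImplicit false
set_option linter.unusedSectionVars false

namespace Cfsg.Agent.OW

/-- A finite projective plane of order `n`, given by its incidence relation. -/
structure Pl {P L : Type*} (I : P → L → Prop) (n : ℕ) : Prop where
  join : ∀ x y, x ≠ y → ∃ l, I x l ∧ I y l
  meet : ∀ l m, l ≠ m → ∃ x, I x l ∧ I x m
  uniq : ∀ {x y l m}, I x l → I y l → I x m → I y m → x ≠ y → l = m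
  cP : Nat.card P = n ^ 2 + n + 1
  cL : Nat.card L = n ^ 2 + n + 1
  kP : ∀ l, Set.ncard {x | I x l} = n + 1
  kL : ∀ x, Set.ncard {l | I x l} = n + 1
  n2 : 2 ≤ n

/-- Non-degenerate configuration. -/
def Cfg {P L : Type*} (I : P → L → Prop) : Prop :=
  ∃ (p₁ p₂ p₃ : P) (l₁ l₂ l₃ : L), ¬ I p₁ l₂ ∧ ¬ I p₁ l₃ ∧ ¬ I p₂ l₁ ∧ I p₂ l₂ ∧ I p₂ l₃ ∧
    ¬ I p₃ l₁ ∧ I p₃ l₂ ∧ ¬ I p₃ l₃

namespace Pl

variable {P L : Type*} {I : P → L → Prop} {n : ℕ}

theorem dual (H : Pl I n) : Pl (fun l x => I x l) n where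
  join := H.meet
  meet := H.join
  uniq := fun {l m x y} h1 h2 h3 h4 hlm => by
    by_contra hxy
    exact hlm (H.uniq h1 h3 h2 h4 hxy)
  cP := H.cL
  cL := H.cP
  kP := H.kL
  kL := H.kP
  n2 := H.n2

theorem uniq' (H : Pl I n) {x y l m} (h1 : I x l) (h2 : I x m) (h3 : I y l) (h4 : I y m)
    (hlm : l ≠ m) : x = y := by
  by_contra hxy
  exact hlm (H.uniq h1 h3 h2 h4 hxy)

theorem of_cfg [Finite P] [Finite L] (join : ∀ x y, x ≠ y → ∃ l, I x l ∧ I y l)
    (meet : ∀ l m, l ≠ m → ∃ x, I x l ∧ I x m)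
    (uniq : ∀ {x y l m}, I x l → I y l → I x m → I y m → x ≠ y → l = m)
    (hc : Cfg I) : ∃ n, Pl I n := by
  classical
  haveI := Fintype.ofFinite P
  haveI := Fintype.ofFinite L
  letI : Membership P L := ⟨fun l x => I x l⟩
  have mem : ∀ (x : P) (l : L), x ∈ l ↔ I x l := fun _ _ => Iff.rfl
  have hc' := hc
  obtain ⟨p₁, p₂, p₃, l₁, l₂, l₃, h1, h2, h3, h4, h5, h6, h7, h8⟩ := hc
  haveI : Nonempty P := ⟨p₁⟩
  haveI : Nonempty L := ⟨l₁⟩
  choose! mkl hmkl using join
  choose! mkp hmkp using meet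
  have hp23 : p₂ ≠ p₃ := by
    rintro rfl
    exact h8 h5
  have hl23 : l₂ ≠ l₃ := by
    rintro rfl
    exact h8 h7
  letI : Configuration.ProjectivePlane P L :=
    { exists_point := fun l => by
        by_contra hcon
        push Not at hcon
        have e : l = l₂ := uniq (hcon p₂) (hcon p₃) h4 h7 hp23
        exact h1 (e ▸ hcon p₁)
      exists_line := fun p => by
        by_contra hcon
        push Not at hcon
        have e : p = p₂ := by
          by_contra hne
          exact hl23 (uniq (hcon l₂) h4 (hcon l₃) h5 hne)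
        exact h3 (e ▸ hcon l₁)
      eq_or_eq := fun {p₁ p₂ l₁ l₂} a b c d => by
        by_cases h : p₁ = p₂
        · exact Or.inl h
        · exact Or.inr (uniq a b c d h)
      mkPoint := fun {l m} _ => mkp l m
      mkPoint_ax := fun {l m} h => hmkp l m h
      mkLine := fun {x y} _ => mkl x y
      mkLine_ax := fun {x y} h => hmkl x y h
      exists_config := hc' }
  refine ⟨Configuration.ProjectivePlane.order P L, ⟨fun x y h => ⟨_, hmkl x y h⟩,
    fun l m h => ⟨_, hmkp l m h⟩, uniq, ?_, ?_, ?_, ?_, ?_⟩⟩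
  · rw [Nat.card_eq_fintype_card]
    exact Configuration.ProjectivePlane.card_points P L
  · rw [Nat.card_eq_fintype_card]
    exact Configuration.ProjectivePlane.card_lines P L
  · intro l
    exact Configuration.ProjectivePlane.pointCount_eq (P := P) l
  · intro x
    exact Configuration.ProjectivePlane.lineCount_eq (L := L) x
  · exact Configuration.ProjectivePlane.one_lt_order P L

section
variable [Finite P] [Finite L] (H : Pl I n)
include H

theorem nonempty_P : Nonempty P := by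
  have h := H.cP
  by_contra hc
  rw [not_nonempty_iff] at hc
  rw [Nat.card_of_isEmpty] at h
  omega

theorem nonempty_L : Nonempty L := H.dual.nonempty_P

/-- a line through `x` avoiding two given lines -/
theorem line3 (x : P) (a b : L) : ∃ m, I x m ∧ m ≠ a ∧ m ≠ b := by
  classical
  by_contra hcon
  push Not at hcon
  have h1 : {l | I x l} ⊆ {a, b} := by
    intro l hl
    by_cases h : l = a
    · exact Or.inl h
    · exact Or.inr (hcon l hl h)
  have h2 := Set.ncard_le_ncard h1 (Set.toFinite _)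
  have h3 : Set.ncard ({a, b} : Set L) ≤ 2 := Set.ncard_insert_le _ _ |>.trans (by simp)
  rw [H.kL] at h2
  have := H.n2
  omega

theorem point3 (l : L) (a b : P) : ∃ x, I x l ∧ x ≠ a ∧ x ≠ b := H.dual.line3 l a b

/-- a point off two given lines -/
theorem off2 (a b : L) : ∃ x, ¬ I x a ∧ ¬ I x b := by
  obtain ⟨z, hza, hzb⟩ : ∃ z, I z a ∧ I z b := by
    by_cases h : a = b
    · subst h
      obtain ⟨p⟩ := H.nonempty_P
      obtain ⟨z, hz, -⟩ := H.point3 a p p
      exact ⟨z, hz, hz⟩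
    · exact H.meet a b h
  obtain ⟨m, hzm, hma, hmb⟩ := H.line3 z a b
  obtain ⟨x, hxm, hxz, -⟩ := H.point3 m z z
  exact ⟨x, fun h => hma (H.uniq hxm hzm h hza hxz), fun h => hmb (H.uniq hxm hzm h hzb hxz)⟩

theorem off2' (a b : P) : ∃ l, ¬ I a l ∧ ¬ I b l := H.dual.off2 a b

/-- a line missing three points -/
theorem off3' (a b c : P) (hab : a ≠ b) (m : L) (ha : I a m) (hb : I b m) (hc : ¬ I c m) :
    ∃ l, ¬ I a l ∧ ¬ I b l ∧ ¬ I c l := by
  obtain ⟨x, hxm, hxa, hxb⟩ := H.point3 m a b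
  have hxc : x ≠ c := fun e => hc (e ▸ hxm)
  obtain ⟨k, hxk, hck⟩ := H.join x c hxc
  obtain ⟨l, hxl, hlm, hlk⟩ := H.line3 x m k
  exact ⟨l, fun h => hlm (H.uniq h hxl ha hxm hxa.symm),
    fun h => hlm (H.uniq h hxl hb hxm hxb.symm),
    fun h => hlk (H.uniq h hxl hck hxk hxc.symm)⟩

theorem cfg : Cfg I := by
  obtain ⟨p⟩ := H.nonempty_P
  obtain ⟨l2, -, -⟩ := H.off2' p p
  obtain ⟨p2, h2, -⟩ := H.point3 l2 p p
  obtain ⟨p3, h3, h32, -⟩ := H.point3 l2 p2 p2
  obtain ⟨l3, h23, hl3, -⟩ := H.line3 p2 l2 l2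
  obtain ⟨p1, h12, h13⟩ := H.off2 l2 l3
  obtain ⟨l1, h21, h31⟩ := H.off2' p2 p3
  exact ⟨p1, p2, p3, l1, l2, l3, h12, h13, h21, h2, h23, h31, h3,
    fun h => hl3 (H.uniq h h23 h3 h2 h32)⟩

theorem ord_unique {m : ℕ} (H' : Pl I m) : m = n := by
  have h1 := H.cP
  rw [H'.cP] at h1
  rcases Nat.lt_trichotomy m n with h | h | h
  · nlinarith
  · exact h
  · nlinarith

end

end Pl

end Cfsg.Agent.OW
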